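import Mathlib
import Cfsg.Agent.Lib.Helper26.Gross2DefsA
import Cfsg.Agent.Lib.Helper26.FpfBasic
import Cfsg.Agent.Lib.Helper30.Basic
import Cfsg.Agent.Lib.Helper31.GrossChain

/-!
# Gross's theorem for `p = 2`: `Cent2Stmt → T2Stmt`

Strong induction on `|G|` with a minimal nontrivial `σ`-invariant normal subgroup `N`
(piece T2FIT of S3795; adapted from `Helper31.GrossTFit`).
-/

set_option autoImplicit false

universe u

open Cfsg.Agent.Lib.Helper26 Cfsg.Agent.Lib.Helper26.Gross2 Cfsg.Agent.Lib.Helper31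

namespace Cfsg.Agent.Lib.Helper69.Gross2T2FIT

theorem gross2_T_of_cent_aux (hC : Cent2Stmt.{u}) (n : ℕ) (m : ℕ) :
    ∀ (G : Type u) [Group G] [Finite G], Nat.card G = m → Group.IsSolvable G →
      ∀ (σ : MulAut G), σ ^ 2 ^ (n + 1) = 1 → (∀ g : G, σ g = g → g = 1) →
      ∃ A : Subgroup G, A.Normal ∧ (∀ x ∈ A, σ x ∈ A) ∧ Cfsg.fittingSubgroup G ≤ A ∧
        (∃ k : ℕ, A.lowerCentralSeries k ≤ Cfsg.fittingSubgroup G) ∧
        ∀ g : G, g⁻¹ * (σ ^ 2 ^ n) g ∈ A := by
  induction m using Nat.strong_induction_on with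
  | _ m IH =>
  intro G _ _ hm hG σ hσ hfpf
  rcases subsingleton_or_nontrivial G with hsub | hnt
  · refine ⟨⊤, inferInstance, fun x _ => Subgroup.mem_top _, le_top, ⟨0, ?_⟩,
      fun g => Subgroup.mem_top _⟩
    intro x _
    rw [Subsingleton.elim x 1]
    exact one_mem _
  -- a minimal nontrivial `σ`-invariant normal subgroup
  obtain ⟨N, -, hNmin'⟩ := Finite.exists_le_minimal
    (p := fun N : Subgroup G => N.Normal ∧ N ≠ ⊥ ∧ ∀ x ∈ N, σ x ∈ N) (a := ⊤)
    ⟨inferInstance, top_ne_bot, fun x _ => Subgroup.mem_top _⟩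
  obtain ⟨hNn, hN0, hNσ⟩ := hNmin'.prop
  have hNmin : ∀ N₀ : Subgroup G, N₀.Normal → N₀ ≤ N → (∀ x ∈ N₀, σ x ∈ N₀) →
      N₀ = ⊥ ∨ N₀ = N := by
    intro N₀ h1 h2 h3
    by_cases h0 : N₀ = ⊥
    · exact Or.inl h0
    · exact Or.inr (le_antisymm h2 (hNmin'.le_of_le ⟨h1, h0, h3⟩ h2))
  have ih : ∀ (H : Type u) [Group H] [Finite H], Nat.card H < Nat.card G → Group.IsSolvable H →
      ∀ (τ : MulAut H), τ ^ 2 ^ (n + 1) = 1 → (∀ h : H, τ h = h → h = 1) →
      ∃ A : Subgroup H, A.Normal ∧ (∀ x ∈ A, τ x ∈ A) ∧ Cfsg.fittingSubgroup H ≤ A ∧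
        (∃ k : ℕ, A.lowerCentralSeries k ≤ Cfsg.fittingSubgroup H) ∧
        ∀ h : H, h⁻¹ * (τ ^ 2 ^ n) h ∈ A := by
    intro H _ _ hlt hH τ hτ hτf
    exact IH (Nat.card H) (hm ▸ hlt) H rfl hH τ hτ hτf
  obtain ⟨B, hBn, hBσ, ⟨k2, hBk⟩, hBg⟩ := hC G hG σ n hσ hfpf ih N hNn hN0 hNσ hNmin
  -- the quotient by `N`
  have hmap : N.map (σ : G →* G) = N := map_eq_of_forall_mem σ N hNσ
  have hfpf' : ∀ x : G ⧸ N, (quotAut σ N hmap : MulAut (G ⧸ N)) x = x → x = 1 :=
    quotAut_fpf σ N hmap hfpf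
  have hpow : (quotAut σ N hmap : MulAut (G ⧸ N)) ^ 2 ^ (n + 1) = 1 := by
    apply MulEquiv.ext
    intro x
    induction x using QuotientGroup.induction_on with
    | H g =>
      rw [gross_quotAut_pow_mk, MulAut.one_apply, hσ, MulAut.one_apply]
  have hcard : Nat.card (G ⧸ N) < Nat.card G := by
    have h1 := Subgroup.card_eq_card_quotient_mul_card_subgroup N
    have h2 : 1 < Nat.card N := (Subgroup.one_lt_card_iff_ne_bot N).mpr hN0
    have h3 : 0 < Nat.card (G ⧸ N) := Nat.card_pos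
    rw [h1]
    nlinarith
  obtain ⟨A', hA'n, hA'σ, hFA', ⟨k1, hA'k⟩, hA'g⟩ :=
    IH (Nat.card (G ⧸ N)) (hm ▸ hcard) (G ⧸ N) rfl inferInstance
      (quotAut σ N hmap) hpow hfpf'
  -- the normal nilpotent subgroup `D`
  have hFn : (Cfsg.fittingSubgroup (G ⧸ N)).Normal := Cfsg.Agent.Lib.Helper30.fitting_normal
  have hF1n : ((Cfsg.fittingSubgroup (G ⧸ N)).comap (QuotientGroup.mk' N)).Normal :=
    hFn.comap _
  have hCn : (Subgroup.centralizer (N : Set G)).Normal := Subgroup.normal_centralizer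
  have hDn : (((Cfsg.fittingSubgroup (G ⧸ N)).comap (QuotientGroup.mk' N)) ⊓
      Subgroup.centralizer (N : Set G)).Normal := inferInstance
  have hDnil : Group.IsNilpotent ↥(((Cfsg.fittingSubgroup (G ⧸ N)).comap (QuotientGroup.mk' N)) ⊓
      Subgroup.centralizer (N : Set G)) := by
    have hFnil : Group.IsNilpotent ↥(Cfsg.fittingSubgroup (G ⧸ N)) :=
      Cfsg.Agent.Lib.Helper30.fitting_nilpotent
    have hmem : ∀ x : ↥(((Cfsg.fittingSubgroup (G ⧸ N)).comap (QuotientGroup.mk' N)) ⊓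
        Subgroup.centralizer (N : Set G)),
        ((QuotientGroup.mk' N).comp (Subgroup.subtype _)) x ∈ Cfsg.fittingSubgroup (G ⧸ N) :=
      fun x => x.2.1
    apply Subgroup.isNilpotent_of_ker_le_center
      (((QuotientGroup.mk' N).comp (Subgroup.subtype _)).codRestrict
        (Cfsg.fittingSubgroup (G ⧸ N)) hmem)
    intro x hx
    rw [MonoidHom.ker_codRestrict, MonoidHom.mem_ker] at hx
    have hxN : (x : G) ∈ N := by
      have h1 : (QuotientGroup.mk' N) (x : G) = 1 := hx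
      rw [QuotientGroup.mk'_apply, QuotientGroup.eq_one_iff] at h1
      exact h1
    rw [Subgroup.mem_center_iff]
    intro y
    apply Subtype.ext
    have hy : (y : G) ∈ Subgroup.centralizer (N : Set G) := y.2.2
    rw [Subgroup.mem_centralizer_iff] at hy
    exact (hy (x : G) hxN).symm
  have hle : (((Cfsg.fittingSubgroup (G ⧸ N)).comap (QuotientGroup.mk' N)) ⊓
      Subgroup.centralizer (N : Set G)) ≤ Cfsg.fittingSubgroup G :=
    le_sSup ⟨hDn, hDnil⟩
  -- the subgroup `A₀`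
  have hA1n : (A'.comap (QuotientGroup.mk' N)).Normal := hA'n.comap _
  have hA0n : (A'.comap (QuotientGroup.mk' N) ⊓ B).Normal := inferInstance
  have hA1σ : ∀ x ∈ A'.comap (QuotientGroup.mk' N), σ x ∈ A'.comap (QuotientGroup.mk' N) := by
    intro x hx
    rw [Subgroup.mem_comap] at hx ⊢
    have := hA'σ _ hx
    rwa [QuotientGroup.mk'_apply, quotAut_mk] at this
  have hA0σ : ∀ x ∈ A'.comap (QuotientGroup.mk' N) ⊓ B,
      σ x ∈ A'.comap (QuotientGroup.mk' N) ⊓ B :=
    fun x hx => ⟨hA1σ x hx.1, hBσ x hx.2⟩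
  have hA0g : ∀ g : G, g⁻¹ * (σ ^ 2 ^ n) g ∈ A'.comap (QuotientGroup.mk' N) ⊓ B := by
    intro g
    refine Subgroup.mem_inf.mpr ⟨?_, hBg g⟩
    have h1 := hA'g (QuotientGroup.mk g)
    rw [gross_quotAut_pow_mk] at h1
    rw [Subgroup.mem_comap]
    exact h1
  -- the lower central series of `A₀`
  have hk1 : k1 ≤ max k1 k2 := le_max_left _ _
  have hk2 : k2 ≤ max k1 k2 := le_max_right _ _
  have hA0k : (A'.comap (QuotientGroup.mk' N) ⊓ B).lowerCentralSeries (max k1 k2) ≤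
      Cfsg.fittingSubgroup G := by
    refine le_trans (le_inf ?_ ?_) hle
    · have h1 : (A'.comap (QuotientGroup.mk' N) ⊓ B).lowerCentralSeries (max k1 k2) ≤
          (A'.comap (QuotientGroup.mk' N)).lowerCentralSeries (max k1 k2) :=
        Subgroup.lowerCentralSeries_mono _ inf_le_left
      refine le_trans h1 ?_
      rw [← Subgroup.map_le_iff_le_comap, Subgroup.map_lowerCentralSeries]
      have h2 : ((A'.comap (QuotientGroup.mk' N)).map (QuotientGroup.mk' N)).lowerCentralSeries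
          (max k1 k2) ≤ A'.lowerCentralSeries (max k1 k2) :=
        Subgroup.lowerCentralSeries_mono _ (Subgroup.map_comap_le _ _)
      exact le_trans h2 (le_trans (A'.lowerCentralSeries_antitone hk1) hA'k)
    · have h1 : (A'.comap (QuotientGroup.mk' N) ⊓ B).lowerCentralSeries (max k1 k2) ≤
          B.lowerCentralSeries (max k1 k2) :=
        Subgroup.lowerCentralSeries_mono _ inf_le_right
      exact le_trans h1 (le_trans (B.lowerCentralSeries_antitone hk2) hBk)
  -- the subgroup `A = A₀ F(G)`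
  have hFGn : (Cfsg.fittingSubgroup G).Normal := Cfsg.Agent.Lib.Helper30.fitting_normal
  have hFGc : (Cfsg.fittingSubgroup G).Characteristic :=
    Cfsg.Agent.Lib.Helper30.fitting_characteristic
  refine ⟨(A'.comap (QuotientGroup.mk' N) ⊓ B) ⊔ Cfsg.fittingSubgroup G, inferInstance, ?_,
    le_sup_right, ⟨max k1 k2, ?_⟩,
    fun g => (le_sup_left : A'.comap (QuotientGroup.mk' N) ⊓ B ≤ _) (hA0g g)⟩
  · intro x hx
    have h1 : ((A'.comap (QuotientGroup.mk' N) ⊓ B) ⊔ Cfsg.fittingSubgroup G).map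
        (σ : G →* G) ≤ (A'.comap (QuotientGroup.mk' N) ⊓ B) ⊔ Cfsg.fittingSubgroup G := by
      rw [Subgroup.map_sup]
      refine sup_le_sup ?_ ?_
      · rw [Subgroup.map_le_iff_le_comap]
        intro y hy
        exact hA0σ y hy
      · rw [Subgroup.map_le_iff_le_comap]
        intro y hy
        rw [Subgroup.mem_comap]
        have h2 := Subgroup.characteristic_iff_comap_eq.mp hFGc σ
        have h3 : y ∈ (Cfsg.fittingSubgroup G).comap σ.toMonoidHom := by rw [h2]; exact hy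
        exact h3
    exact h1 (Subgroup.mem_map_of_mem _ hx)
  · have h1 : (((A'.comap (QuotientGroup.mk' N) ⊓ B) ⊔ Cfsg.fittingSubgroup G).lowerCentralSeries
        (max k1 k2)).map (QuotientGroup.mk' (Cfsg.fittingSubgroup G)) = ⊥ := by
      have hF0 : (Cfsg.fittingSubgroup G).map (QuotientGroup.mk' (Cfsg.fittingSubgroup G)) = ⊥ := by
        rw [Subgroup.map_eq_bot_iff, QuotientGroup.ker_mk']
      rw [Subgroup.map_lowerCentralSeries, Subgroup.map_sup, hF0, sup_bot_eq,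
        ← Subgroup.map_lowerCentralSeries, Subgroup.map_eq_bot_iff, QuotientGroup.ker_mk']
      exact hA0k
    rw [Subgroup.map_eq_bot_iff, QuotientGroup.ker_mk'] at h1
    exact h1

theorem gross2_T_of_cent (hC : Cent2Stmt.{u}) : T2Stmt.{u} := by
  intro G _ _ hG σ n hσ hfpf
  exact gross2_T_of_cent_aux hC n (Nat.card G) G rfl hG σ hσ hfpf

end Cfsg.Agent.Lib.Helper69.Gross2T2FIT
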