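import Mathlib
import Cfsg.Agent.Lib.Helper18.Darboux

set_option autoImplicit false

/-! Piece GT-SKEW of S2700 (helper53): an invertible skew matrix over a field with `2 ≠ 0` is
congruent to the (reindexed) standard symplectic matrix `Matrix.J`. -/

namespace Cfsg.Agent.Lib.Helper69.GTSKEW

open Module Cfsg.Agent.Lib.Helper18

/-- the bilinear form of a skew matrix is alternating -/
private theorem skew_isAlt {F : Type*} [Field F] (h2 : (2 : F) ≠ 0) {n : ℕ}
    (g : Matrix (Fin n) (Fin n) F) (hg : g.transpose = -g) :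
    (Matrix.toBilin' g).IsAlt := by
  intro v
  rw [Matrix.toBilin'_apply']
  have h1 : v ⬝ᵥ g.mulVec v = -(v ⬝ᵥ g.mulVec v) := by
    calc v ⬝ᵥ g.mulVec v = (Matrix.vecMul v g) ⬝ᵥ v := Matrix.dotProduct_mulVec v g v
      _ = (g.transpose.mulVec v) ⬝ᵥ v := by rw [Matrix.mulVec_transpose]
      _ = -(g.mulVec v ⬝ᵥ v) := by rw [hg, Matrix.neg_mulVec, neg_dotProduct]
      _ = -(v ⬝ᵥ g.mulVec v) := by rw [dotProduct_comm]
  have h3 : (2 : F) * (v ⬝ᵥ g.mulVec v) = 0 := by
    linear_combination h1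
  rcases mul_eq_zero.mp h3 with h4 | h4
  · exact absurd h4 h2
  · exact h4

/-- the congruence entries are values of the bilinear form on the rows -/
private theorem congr_entry {F : Type*} [Field F] {n : ℕ}
    (h g : Matrix (Fin n) (Fin n) F) (a b : Fin n) :
    (h * g * h.transpose) a b = Matrix.toBilin' g (h a) (h b) := by
  rw [Matrix.toBilin'_apply', Matrix.mul_apply]
  simp only [Matrix.mul_apply, Matrix.transpose_apply, dotProduct, Matrix.mulVec,
    Finset.sum_mul, Finset.mul_sum, mul_assoc]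
  exact Finset.sum_comm

theorem skew_congr {F : Type*} [Field F] (h2 : (2 : F) ≠ 0) (m : ℕ)
    (τ : Fin m ⊕ Fin m ≃ Fin (2 * m))
    (g : Matrix (Fin (2 * m)) (Fin (2 * m)) F) (hg : g.transpose = -g) (hdet : g.det ≠ 0) :
    ∃ h : GL (Fin (2 * m)) F, (h : Matrix (Fin (2 * m)) (Fin (2 * m)) F) * g *
      (h : Matrix (Fin (2 * m)) (Fin (2 * m)) F).transpose =
        Matrix.reindex τ τ (Matrix.J (Fin m) F) := by
  classical
  have hAlt := skew_isAlt h2 g hg
  have hnd : ∀ u ∈ (⊤ : Submodule F (Fin (2 * m) → F)),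
      (∀ v ∈ (⊤ : Submodule F (Fin (2 * m) → F)), Matrix.toBilin' g u v = 0) → u = 0 := by
    intro u _ hu
    have h1 : Matrix.vecMul u g = 0 := by
      apply dotProduct_eq_zero
      intro w
      rw [← Matrix.dotProduct_mulVec, ← Matrix.toBilin'_apply']
      exact hu w Submodule.mem_top
    exact Matrix.eq_zero_of_vecMul_eq_zero hdet h1
  obtain ⟨k, e, f, hD⟩ := exists_darboux (Matrix.toBilin' g) hAlt
    (finrank F (⊤ : Submodule F (Fin (2 * m) → F))) ⊤ rfl hnd
  have hk : finrank F (⊤ : Submodule F (Fin (2 * m) → F)) = 2 * k := hD.finrank_eq hAlt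
  have hk' : k = m := by
    rw [finrank_top, Module.finrank_fin_fun] at hk
    omega
  subst hk'
  -- the matrix with rows `e i` (at `τ (inl i)`) and `f i` (at `τ (inr i)`)
  set h : Matrix (Fin (2 * k)) (Fin (2 * k)) F :=
    Matrix.of (fun a => Sum.elim e f (τ.symm a)) with hh
  have hrow : ∀ a, h a = Sum.elim e f (τ.symm a) := fun a => rfl
  have hmain : h * g * h.transpose = Matrix.reindex τ τ (Matrix.J (Fin k) F) := by
    ext a b
    rw [congr_entry, hrow, hrow, Matrix.reindex_apply, Matrix.submatrix_apply]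
    rcases hA : τ.symm a with i | i <;> rcases hB : τ.symm b with j | j
    · simp [Matrix.J, hD.ee]
    · simp only [Sum.elim_inl, Sum.elim_inr, hD.ef, Matrix.J, Matrix.fromBlocks_apply₁₂,
        Matrix.neg_apply, Matrix.one_apply]
      by_cases hij : i = j <;> simp [hij]
    · simp only [Sum.elim_inl, Sum.elim_inr, hD.fe hAlt, Matrix.J, Matrix.fromBlocks_apply₂₁,
        Matrix.one_apply]
    · simp [Matrix.J, hD.ff]
  have hJdet : (Matrix.reindex τ τ (Matrix.J (Fin k) F)).det ≠ 0 := by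
    rw [Matrix.det_reindex_self]
    exact (Matrix.isUnit_det_J (Fin k) F).ne_zero
  have hhdet : h.det ≠ 0 := by
    intro h0
    apply hJdet
    rw [← hmain, Matrix.det_mul, Matrix.det_mul, h0, zero_mul, zero_mul]
  refine ⟨Matrix.GeneralLinearGroup.mkOfDetNeZero h hhdet, ?_⟩
  exact hmain

end Cfsg.Agent.Lib.Helper69.GTSKEW
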