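import Mathlib

set_option autoImplicit false

/-! Piece T for S2149 (poster helper36): a TI `p`-subgroup argument forcing transitivity
(helper69). -/

namespace Cfsg.Agent.Lib.Helper69.U35T

theorem isPGroup_zpowers_of_pow' {K : Type*} [Group K] (p : ℕ) (x : K) (k : ℕ)
    (hk : x ^ (p ^ k) = 1) : IsPGroup p (Subgroup.zpowers x) := by
  rintro ⟨y, hy⟩
  obtain ⟨n, rfl⟩ := Subgroup.mem_zpowers_iff.mp hy
  refine ⟨k, Subtype.ext ?_⟩
  simp only [Subgroup.coe_pow, Subgroup.coe_one]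
  rw [← zpow_natCast, ← zpow_mul, mul_comm, zpow_mul, zpow_natCast, hk, one_zpow]

/-- for every point there is a non-trivial `p`-element of `H` with that point as its only
fixed point -/
theorem exists_punct {G : Type*} [Group G] [Finite G] {Δ : Type*} [MulAction G Δ]
    [MulAction.IsPretransitive G Δ] (p : ℕ) (P : Subgroup G) (hP : IsPGroup p P)
    (δ₀ : Δ) (hfix : ∀ u ∈ P, u • δ₀ = δ₀)
    (hTI : ∀ u ∈ P, u ≠ 1 → ∀ δ : Δ, u • δ = δ → δ = δ₀)
    (H : Subgroup G) (hH : Nat.card G < Nat.card H * Nat.card P) (δ : Δ) :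
    ∃ u ∈ H, (∃ k : ℕ, u ^ p ^ k = 1) ∧ ∀ ε : Δ, u • ε = ε ↔ ε = δ := by
  obtain ⟨g, hg⟩ := MulAction.exists_smul_eq G δ₀ δ
  have hex : ∃ v ∈ P, v ≠ 1 ∧ g * v * g⁻¹ ∈ H := by
    by_contra hcon
    push_neg at hcon
    have hinj : Function.Injective (fun x : ↥H × ↥P => (x.1 : G) * g * (x.2 : G)) := by
      rintro ⟨h, v⟩ ⟨h', v'⟩ heq
      have heq' : (h : G) * g * (v : G) = (h' : G) * g * (v' : G) := heq
      have h1 : g * ((v' : G) * (v : G)⁻¹) * g⁻¹ = (h' : G)⁻¹ * (h : G) := by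
        have : (h : G) = (h' : G) * g * (v' : G) * (v : G)⁻¹ * g⁻¹ := by
          rw [← heq']
          group
        rw [this]
        group
      have h2 : (v' : G) * (v : G)⁻¹ = 1 := by
        by_contra hne
        exact hcon _ (P.mul_mem v'.2 (P.inv_mem v.2)) hne
          (h1 ▸ H.mul_mem (H.inv_mem h'.2) h.2)
      have hv : v' = v := Subtype.ext (mul_inv_eq_one.mp h2)
      subst hv
      have hh : h = h' := Subtype.ext (mul_right_cancel (mul_right_cancel heq'))
      rw [hh]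
    have hle := Nat.card_le_card_of_injective _ hinj
    rw [Nat.card_prod] at hle
    omega
  obtain ⟨v, hvP, hv1, hvH⟩ := hex
  refine ⟨g * v * g⁻¹, hvH, ?_, ?_⟩
  · obtain ⟨k, hk⟩ := hP ⟨v, hvP⟩
    refine ⟨k, ?_⟩
    have : v ^ p ^ k = 1 := by simpa using congrArg Subtype.val hk
    rw [conj_pow, this, mul_one, mul_inv_cancel]
  · intro ε
    constructor
    · intro hε
      have h1 : v • (g⁻¹ • ε) = g⁻¹ • ε := by
        have h0 : g⁻¹ • ((g * v * g⁻¹) • ε) = g⁻¹ • ε := by rw [hε]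
        rw [smul_smul] at h0
        rw [smul_smul]
        have e : g⁻¹ * (g * v * g⁻¹) = v * g⁻¹ := by group
        rw [e] at h0
        exact h0
      have h2 := hTI v hvP hv1 _ h1
      rw [← hg, ← h2, smul_smul, mul_inv_cancel, one_smul]
    · rintro rfl
      rw [← hg, smul_smul]
      have : g * v * g⁻¹ * g = g * v := by group
      rw [this, mul_smul, hfix v hvP]

theorem card_dvd_of_TI {G : Type*} [Group G] [Finite G] {Δ : Type*} [MulAction G Δ] [Finite Δ]
    [MulAction.IsPretransitive G Δ] (p : ℕ) [Fact p.Prime] (P : Subgroup G) (hP : IsPGroup p P)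
    (δ₀ : Δ) (hfix : ∀ u ∈ P, u • δ₀ = δ₀)
    (hTI : ∀ u ∈ P, u ≠ 1 → ∀ δ : Δ, u • δ = δ → δ = δ₀)
    (H Z : Subgroup G) (hZH : Z ≤ H) (hZ : ∀ z ∈ Z, ∀ δ : Δ, z • δ = δ)
    (hH : Nat.card G < Nat.card H * Nat.card P) :
    Nat.card Δ * Nat.card Z ∣ Nat.card H := by
  classical
  have hpunct := exists_punct p P hP δ₀ hfix hTI H hH
  have htrans : ∀ δ : Δ, δ ∈ MulAction.orbit ↥H δ₀ := by
    intro δ
    by_contra hδ
    obtain ⟨u₀, hu₀H, ⟨k₀, hk₀⟩, hu₀⟩ := hpunct δ₀
    obtain ⟨u, huH, ⟨k, hk⟩, hu⟩ := hpunct δ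
    have key : ∀ (w : G) (hw : w ∈ H) (k : ℕ), w ^ p ^ k = 1 → ∀ (ε : Δ),
        (∀ x : Δ, w • x = x ↔ x = ε) →
        Nat.card (MulAction.orbit ↥H δ₀) ≡
          (if ε ∈ MulAction.orbit ↥H δ₀ then 1 else 0) [MOD p] := by
      intro w hw k hwk ε hwε
      have hU : IsPGroup p (Subgroup.zpowers (⟨w, hw⟩ : ↥H)) :=
        isPGroup_zpowers_of_pow' p _ k (Subtype.ext (by simpa using hwk))
      have h1 := hU.card_modEq_card_fixedPoints (MulAction.orbit ↥H δ₀)
      have hval : ∀ x : MulAction.fixedPoints (Subgroup.zpowers (⟨w, hw⟩ : ↥H))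
          (MulAction.orbit ↥H δ₀), (x.1 : Δ) = ε := by
        intro x
        have h2 := x.2 ⟨⟨w, hw⟩, Subgroup.mem_zpowers _⟩
        have h3 : w • (x.1 : Δ) = (x.1 : Δ) := congrArg Subtype.val h2
        exact (hwε _).mp h3
      have h2 : Nat.card (MulAction.fixedPoints (Subgroup.zpowers (⟨w, hw⟩ : ↥H))
          (MulAction.orbit ↥H δ₀)) = if ε ∈ MulAction.orbit ↥H δ₀ then 1 else 0 := by
        split_ifs with hε
        · rw [Nat.card_eq_one_iff_unique]
          refine ⟨⟨fun a b => ?_⟩, ⟨⟨⟨ε, hε⟩, ?_⟩⟩⟩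
          · apply Subtype.ext
            apply Subtype.ext
            rw [hval a, hval b]
          · intro m
            apply Subtype.ext
            obtain ⟨n, hn⟩ := Subgroup.mem_zpowers_iff.mp m.2
            have hst : w ∈ MulAction.stabilizer G ε := (hwε ε).mpr rfl
            have h4 : ((m : ↥H) : G) = w ^ n := by
              rw [← hn]
              simp
            have h5 : ((m : ↥H) : G) ∈ MulAction.stabilizer G ε := by
              rw [h4]
              exact zpow_mem hst n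
            exact h5
        · rw [Nat.card_eq_zero]
          left
          constructor
          intro x
          apply hε
          rw [← hval x]
          exact x.1.2
      rw [h2] at h1
      exact h1
    have e1 := key u₀ hu₀H k₀ hk₀ δ₀ hu₀
    have e2 := key u huH k hk δ hu
    rw [if_pos (MulAction.mem_orbit_self δ₀)] at e1
    rw [if_neg hδ] at e2
    have h10 : 1 ≡ 0 [MOD p] := e1.symm.trans e2
    have hp := (Fact.out : p.Prime)
    exact hp.one_lt.ne' (Nat.dvd_one.mp (Nat.modEq_zero_iff_dvd.mp h10))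
  have horb : MulAction.orbit ↥H δ₀ = Set.univ := Set.eq_univ_of_forall htrans
  have h1 : (MulAction.stabilizer ↥H δ₀).index = Nat.card Δ := by
    rw [MulAction.index_stabilizer, horb, Set.ncard_univ]
  have h2 := Subgroup.index_mul_card (MulAction.stabilizer ↥H δ₀)
  have h3 : Z.subgroupOf H ≤ MulAction.stabilizer ↥H δ₀ := by
    intro z hz
    rw [MulAction.mem_stabilizer_iff]
    exact hZ z.1 (Subgroup.mem_subgroupOf.mp hz) δ₀
  have h4 : Nat.card (Z.subgroupOf H) = Nat.card Z :=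
    Nat.card_congr (Subgroup.subgroupOfEquivOfLe hZH).toEquiv
  have h5 := Subgroup.card_dvd_of_le h3
  rw [h4] at h5
  rw [← h2, h1]
  exact Nat.mul_dvd_mul_left _ h5

end Cfsg.Agent.Lib.Helper69.U35T
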