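import Mathlib

/-!
Project SPG (helper71), sub-project TIF, piece T3c (helper69): in characteristic 2 the factor
forms of a tensor product form with zero diagonal are all symmetric with zero diagonal.
-/

set_option autoImplicit false

namespace Cfsg.Agent.Lib.Helper69.TIFT3c

open Matrix

variable {n : ℕ} {F : Type*} [Field F] [Fintype F]

/-- a congruent of a symmetric matrix with zero diagonal has zero diagonal in characteristic 2 -/
theorem t3c_quad {m : ℕ} (h2 : (2 : F) = 0) (S : Matrix (Fin m) (Fin m) F) (hS : Sᵀ = S)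
    (hd : ∀ a, S a a = 0) (B : Matrix (Fin m) (Fin m) F) (u : Fin m) :
    (Bᵀ * S * B) u u = 0 := by
  rw [Matrix.mul_apply]
  simp only [Matrix.mul_apply, Matrix.transpose_apply, Finset.sum_mul]
  rw [← Finset.sum_product']
  refine Finset.sum_involution (fun p _ => p.swap) ?_ ?_ ?_ ?_
  · intro p _
    have hs : S p.1 p.2 = S p.2 p.1 := by
      have := congrFun (congrFun hS p.2) p.1
      rw [Matrix.transpose_apply] at this
      exact this
    show B p.2 u * S p.2 p.1 * B p.1 u + B p.1 u * S p.1 p.2 * B p.2 u = 0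
    rw [hs]
    linear_combination (B p.2 u * S p.2 p.1 * B p.1 u) * h2
  · intro p _ hne hsw
    apply hne
    have h12 : p.2 = p.1 := congrArg Prod.fst hsw
    rw [h12, hd, mul_zero, zero_mul]
  · intro p _
    exact Finset.mem_univ _
  · intro p _
    exact Prod.swap_swap p

/-- T3c: `q` even: the factor forms are all symmetric with zero diagonal. -/
theorem T3c {m k : ℕ} (h2 : (2 : F) = 0) (c : F) (hc : c ≠ 0)
    (Gs : Fin k → Matrix (Fin m) (Fin m) F) (hdet : ∀ i, (Gs i).det ≠ 0)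
    (hsym : ∀ i, (Gs i)ᵀ = Gs i ∨ (Gs i)ᵀ = -Gs i)
    (hconj : ∀ i j, ∃ (μ : F) (B : GL (Fin m) F), μ ≠ 0 ∧ B.1ᵀ * Gs j * B.1 = μ • Gs i)
    (G : Matrix (Fin k → Fin m) (Fin k → Fin m) F)
    (hG : ∀ a b, G a b = c * ∏ i, Gs i (a i) (b i)) (hdiag : ∀ a, G a a = 0) :
    (∀ i, (Gs i)ᵀ = Gs i) ∧ ∀ i u, Gs i u u = 0 := by
  have hneg : ∀ x : F, -x = x := fun x => by
    rw [neg_eq_iff_add_eq_zero]
    linear_combination x * h2
  have hS : ∀ i, (Gs i)ᵀ = Gs i := by
    intro i
    rcases hsym i with h | h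
    · exact h
    · rw [h]
      ext a b
      rw [Matrix.neg_apply]
      exact hneg _
  refine ⟨hS, ?_⟩
  by_cases hex : ∃ j, ∀ u, Gs j u u = 0
  · obtain ⟨j, hj⟩ := hex
    intro i u
    obtain ⟨μ, B, hμ, hB⟩ := hconj i j
    have h1 : (B.1ᵀ * Gs j * B.1) u u = 0 := t3c_quad h2 (Gs j) (hS j) hj B.1 u
    rw [hB, Matrix.smul_apply, smul_eq_mul] at h1
    exact (mul_eq_zero.mp h1).resolve_left hμ
  · exfalso
    have hex' : ∀ j, ∃ u, Gs j u u ≠ 0 := fun j => by
      by_contra hcon
      exact hex ⟨j, fun u => by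
        by_contra hu
        exact hcon ⟨u, hu⟩⟩
    choose u hu using hex'
    have h0 := hdiag u
    rw [hG] at h0
    rcases mul_eq_zero.mp h0 with h | h
    · exact hc h
    · rw [Finset.prod_eq_zero_iff] at h
      obtain ⟨i, _, hi⟩ := h
      exact hu i hi

end Cfsg.Agent.Lib.Helper69.TIFT3c
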