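import Mathlib
import Cfsg.Agent.Lib.Helper52.SP8EBDefs

/-! SP8-EB (helper52, S5823): piece ABS2b — a set of matrices whose span contains every transported
one-factor matrix acts irreducibly. -/

set_option autoImplicit false

namespace Cfsg.Agent.Lib.Helper52.SP8EB

open Matrix Cfsg.Geo Cfsg.Agent.Lib.Helper71.Asch

variable {n : ℕ} {F : Type*} [Field F] [Fintype F]

/-- the matrices leaving a subspace invariant, as a submodule of the matrices -/
def ABS2b_stab (W : Submodule F (Fin n → F)) : Submodule F (Matrix (Fin n) (Fin n) F) where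
  carrier := {X | ∀ w ∈ W, X *ᵥ w ∈ W}
  add_mem' := by
    intro X Y hX hY w hw
    rw [Matrix.add_mulVec]
    exact W.add_mem (hX w hw) (hY w hw)
  zero_mem' := by
    intro w hw
    rw [Matrix.zero_mulVec]
    exact W.zero_mem
  smul_mem' := by
    intro c X hX w hw
    rw [Matrix.smul_mulVec]
    exact W.smul_mem c (hX w hw)

theorem ABS2b_pt_eq (cs : Fin 3 → Matrix (Fin 2) (Fin 2) F) :
    pt cs = iota 0 (cs 0) * iota 1 (cs 1) * iota 2 (cs 2) := by
  rw [iota_eq_pt, iota_eq_pt, iota_eq_pt, pt_mul, pt_mul]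
  congr 1
  funext i
  fin_cases i <;> simp [Function.update_apply]

theorem ABS2b_single_eq (a b : Fin 3 → Fin 2) :
    (Matrix.single a b (1 : F) : Matrix (Fin 3 → Fin 2) (Fin 3 → Fin 2) F) =
      pt (fun i => Matrix.single (a i) (b i) (1 : F)) := by
  ext x y
  rw [pt_apply, Matrix.single_apply]
  simp only [Matrix.single_apply]
  rw [Finset.prod_ite_zero]
  simp [funext_iff, forall_and]

/-- ABS2b. -/
theorem ABS2b (e : Fin n ≃ (Fin 3 → Fin 2)) (P : GL (Fin n) F) (S : Set (Matrix (Fin n) (Fin n) F))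
    (hS : HSpanIota e P S) : ActsIrreducibly S := by
  intro W hW
  have hST : Submodule.span F S ≤ ABS2b_stab W := by
    rw [Submodule.span_le]
    intro s hs w hw
    have h1 := hW s hs (Submodule.mem_map_of_mem hw)
    rw [Matrix.toLin'_apply] at h1
    exact h1
  have hmul : ∀ X Y : Matrix (Fin n) (Fin n) F, X ∈ ABS2b_stab W → Y ∈ ABS2b_stab W →
      X * Y ∈ ABS2b_stab W := by
    intro X Y hX hY w hw
    rw [← Matrix.mulVec_mulVec]
    exact hX _ (hY w hw)
  have hpt : ∀ cs : Fin 3 → Matrix (Fin 2) (Fin 2) F, tw e P (pt cs) ∈ ABS2b_stab W := by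
    intro cs
    rw [ABS2b_pt_eq, ← tw_mul, ← tw_mul]
    exact hmul _ _ (hmul _ _ (hST (hS 0 _)) (hST (hS 1 _))) (hST (hS 2 _))
  have hall : ∀ X : Matrix (Fin 3 → Fin 2) (Fin 3 → Fin 2) F, tw e P X ∈ ABS2b_stab W := by
    intro X
    rw [Matrix.matrix_eq_sum_single X, tw_sum]
    refine Submodule.sum_mem _ fun a _ => ?_
    rw [tw_sum]
    refine Submodule.sum_mem _ fun b _ => ?_
    have h1 : Matrix.single a b (X a b) = X a b • Matrix.single a b (1 : F) := by
      rw [Matrix.smul_single, smul_eq_mul, mul_one]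
    rw [h1, tw_smul, ABS2b_single_eq]
    exact Submodule.smul_mem _ _ (hpt _)
  have hall' : ∀ Y : Matrix (Fin n) (Fin n) F, ∀ w ∈ W, Y *ᵥ w ∈ W := by
    intro Y
    have h1 := hall (twinv e P Y)
    rw [tw_twinv] at h1
    exact h1
  by_cases hbot : W = ⊥
  · exact Or.inl hbot
  · right
    obtain ⟨v, hv, hv0⟩ := (Submodule.ne_bot_iff W).mp hbot
    obtain ⟨j, hj⟩ := Function.ne_iff.mp hv0
    rw [eq_top_iff]
    intro w _
    have hX := hall' (Matrix.of fun i k => w i * (if k = j then (v j)⁻¹ else 0)) v hv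
    have h2 : (Matrix.of fun i k => w i * (if k = j then (v j)⁻¹ else 0)) *ᵥ v = w := by
      funext i
      have hj' : v j ≠ 0 := hj
      simp [Matrix.mulVec, dotProduct, hj']
    rw [h2] at hX
    exact hX

end Cfsg.Agent.Lib.Helper52.SP8EB
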