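import Mathlib
import Cfsg.Agent.Lib.Helper84.Gagola
import Cfsg.Agent.Lib.Helper83.IrrBasic
import Cfsg.Agent.Lib.Helper83.Linear

/-!
# S0997 piece BW-A2 (helper69): nontrivial irreducible characters of a simple group are faithful
-/

set_option autoImplicit false

namespace Cfsg.Agent.Lib.Helper5.BW

open Cfsg
open Cfsg.Agent.Lib.Helper83 (trivIrr)
open scoped ComplexConjugate

/-- BW-A2 -/
theorem irr_faithful {G : Type*} [Group G] [Fintype G] [IsSimpleGroup G] (hG : ¬ IsCyclic G)
    (θ : IrrCharacter G) (hθ : θ ≠ trivIrr G) :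
    ∀ g : G, (θ : G → ℂ) g = (θ : G → ℂ) 1 → g = 1 := by
  intro g hg
  have hmem : g ∈ Cfsg.Agent.Lib.Helper84.irrKer θ := hg
  rcases (Cfsg.Agent.Lib.Helper84.irrKer_normal θ).eq_bot_or_eq_top with hK | hK
  · rw [hK] at hmem
    exact Subgroup.mem_bot.1 hmem
  · exfalso
    have hall : ∀ x : G, (θ : G → ℂ) x = (θ : G → ℂ) 1 := fun x => by
      have hx : x ∈ Cfsg.Agent.Lib.Helper84.irrKer θ := by
        rw [hK]
        exact Subgroup.mem_top x
      exact hx
    have horth := Cfsg.Agent.Lib.Helper83.irr_orthonormal θ (trivIrr G)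
    rw [if_neg hθ] at horth
    unfold classInner at horth
    have hsum : ∑ x : G, (θ : G → ℂ) x * conj ((trivIrr G : G → ℂ) x) =
        (Nat.card G : ℂ) * (θ : G → ℂ) 1 := by
      rw [Finset.sum_congr rfl (fun x _ => by
        rw [hall x, Cfsg.Agent.Lib.Helper83.trivIrr_apply, map_one, mul_one] :
        ∀ x ∈ (Finset.univ : Finset G),
          (θ : G → ℂ) x * conj ((trivIrr G : G → ℂ) x) = (θ : G → ℂ) 1)]
      rw [Finset.sum_const, Finset.card_univ, nsmul_eq_mul, Nat.card_eq_fintype_card]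
    rw [hsum] at horth
    have hne : (Nat.card G : ℂ) ≠ 0 := by
      have : 0 < Nat.card G := Nat.card_pos
      exact_mod_cast this.ne'
    rw [← mul_assoc, inv_mul_cancel₀ hne, one_mul] at horth
    exact Cfsg.Agent.Lib.Helper84.irr_one_ne θ horth

end Cfsg.Agent.Lib.Helper5.BW
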