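import Cfsg.Agent.Lib.Helper96.HyDefs

/-!
Project HE (S5993, helper96) piece TYPMAP (helper69): nondegeneracy, type and dimension of a
subspace are preserved by an isometric linear equivalence.
-/

set_option autoImplicit false
set_option linter.unusedSectionVars false
set_option linter.unusedVariables false

namespace Cfsg.Agent.Lib.Helper69.He

open Module Polynomial Cfsg.Agent.Lib.Helper96.Sp Cfsg.Agent.Lib.Helper96.Hy
  Cfsg.Agent.Lib.Helper47

universe u

section Abstract

variable {F : Type u} [Field F] [Fintype F] {V : Type u} [AddCommGroup V] [Module F V]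
  [FiniteDimensional F V] {B : LinearMap.BilinForm F V}

-- PIECE TYPMAP
theorem typ_map (W : Submodule F V) (g : V ≃ₗ[F] V) (hg : Isom B (g : V →ₗ[F] V)) (ε : ℤ)
    (hW : ND B W) (hT : Typ B W ε) :
    ND B (W.map (g : V →ₗ[F] V)) ∧ Typ B (W.map (g : V →ₗ[F] V)) ε ∧
      finrank F (W.map (g : V →ₗ[F] V)) = finrank F W := by
  have hfin : finrank F (W.map (g : V →ₗ[F] V)) = finrank F W := LinearEquiv.finrank_map_eq g W
  have hg' : ∀ x y : V, B (g x) (g y) = B x y := fun x y => hg x y
  refine ⟨?_, ?_, hfin⟩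
  · rintro _ ⟨w, hw, rfl⟩ h
    have h0 : w = 0 := by
      apply hW w hw
      intro w' hw'
      have h1 := h (g w') ⟨w', hw', rfl⟩
      have h2 : B (g w) (g w') = B w w' := hg' w w'
      rw [← h2]
      exact h1
    rw [h0]
    exact map_zero _
  · obtain ⟨k, hk, hTyp⟩ := hT
    refine ⟨k, by rw [hfin]; exact hk, ?_⟩
    refine IsTyp.of_equiv (g.submoduleMap W).toEquiv (fun v => ?_) hTyp
    show B ((g.submoduleMap W v : ↥(W.map (g : V →ₗ[F] V))) : V)
        ((g.submoduleMap W v : ↥(W.map (g : V →ₗ[F] V))) : V) = B (v : V) (v : V)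
    rw [LinearEquiv.submoduleMap_apply]
    exact hg' _ _

end Abstract

end Cfsg.Agent.Lib.Helper69.He
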