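import Mathlib
import Cfsg.Prelude.Def_PLocal
import Cfsg.Prelude.Def_OddOrderLocal
import Cfsg.Agent.Lib.Helper75.Regular2
import Cfsg.Agent.Lib.Helper72.Frattini
import Cfsg.Agent.Lib.Helper69.RegClass
import Cfsg.Agent.S0641
import Cfsg.Agent.S0662

set_option autoImplicit false
open Cfsg
open scoped commutatorElement

/-! `p`-groups with `|Ω₁| ≤ p²`, `p > 3`: regular, metacyclic (Huppert), and the bound passes to
quotients (helper69). -/

namespace Cfsg.Agent.Lib.Helper69.Hup

open Cfsg.Agent.Lib.Helper75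

universe u

section basic

variable {G : Type*} [Group G]

/-- the bound on `Ω₁` passes to subgroups -/
theorem card_omegaOne_subgroup_le [Finite G] (p : ℕ) (H : Subgroup G) :
    Nat.card (omegaOne p (⊤ : Subgroup H)) ≤ Nat.card (omegaOne p (⊤ : Subgroup G)) := by
  have h1 : (omegaOne p (⊤ : Subgroup H)).map H.subtype ≤ omegaOne p (⊤ : Subgroup G) := by
    unfold omegaOne
    rw [Subgroup.map_le_iff_le_comap, Subgroup.closure_le]
    rintro x ⟨-, hx⟩
    refine Subgroup.subset_closure ⟨Subgroup.mem_top _, ?_⟩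
    have := congrArg Subtype.val hx
    simpa using this
  calc Nat.card (omegaOne p (⊤ : Subgroup H))
      = Nat.card ((omegaOne p (⊤ : Subgroup H)).map H.subtype) :=
        (Subgroup.card_map_of_injective H.subtype_injective).symm
    _ ≤ _ := Subgroup.card_le_of_le h1

theorem powReg_of_regular {p : ℕ} (hG : IsRegularPGroup p G) : Reg2.PowReg p G := by
  have := Reg2.powReg_of_isRegular hG 1
  rwa [pow_one] at this

/-- in a regular `p`-group, `|℧₁| · |Ω₁| = |G|` -/
theorem card_agemo_mul_card_omega [Finite G] {p : ℕ} [Fact p.Prime] (hG : IsRegularPGroup p G) :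
    Nat.card (Subgroup.closure (Reg2.powSet p (⊤ : Subgroup G))) * Nat.card (Reg.OmegaSub hG 1) =
      Nat.card G := by
  have hq : Reg2.PowReg p G := powReg_of_regular hG
  have hset := Reg2.closure_powSet hG.1 hq (⊤ : Subgroup G)
  have hmemV : ∀ x : G, x ^ p ∈ Subgroup.closure (Reg2.powSet p (⊤ : Subgroup G)) :=
    fun x => Subgroup.subset_closure ⟨x, Subgroup.mem_top x, rfl⟩
  let f : G ⧸ Reg.OmegaSub hG 1 → Subgroup.closure (Reg2.powSet p (⊤ : Subgroup G)) :=
    Quotient.lift (fun x : G => (⟨x ^ p, hmemV x⟩ :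
      Subgroup.closure (Reg2.powSet p (⊤ : Subgroup G)))) (by
      intro a b hab
      have h1 : a⁻¹ * b ∈ Reg.OmegaSub hG 1 := QuotientGroup.leftRel_apply.mp hab
      have h2 : (a⁻¹ * b) ^ p ^ 1 = 1 := h1
      have h3 := (Reg.pow_eq_iff hG 1 a b).mpr h2
      rw [pow_one] at h3
      exact Subtype.ext h3)
  have hinj : Function.Injective f := by
    intro x y hxy
    induction x using QuotientGroup.induction_on with
    | H a =>
      induction y using QuotientGroup.induction_on with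
      | H b =>
        have h1 : a ^ p = b ^ p := congrArg Subtype.val hxy
        apply QuotientGroup.eq.mpr
        show (a⁻¹ * b) ^ p ^ 1 = 1
        exact (Reg.pow_eq_iff hG 1 a b).mp (by rwa [pow_one])
  have hsurj : Function.Surjective f := by
    rintro ⟨y, hy⟩
    have h1 : y ∈ (Subgroup.closure (Reg2.powSet p (⊤ : Subgroup G)) : Set G) := hy
    rw [hset] at h1
    obtain ⟨x, -, rfl⟩ := h1
    exact ⟨QuotientGroup.mk x, rfl⟩
  have hcard : Nat.card (G ⧸ Reg.OmegaSub hG 1) =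
      Nat.card (Subgroup.closure (Reg2.powSet p (⊤ : Subgroup G))) :=
    Nat.card_congr (Equiv.ofBijective f ⟨hinj, hsurj⟩)
  have h2 := Subgroup.card_mul_index (Reg.OmegaSub hG 1)
  rw [Subgroup.index_eq_card, hcard, mul_comm] at h2
  exact h2

theorem omega_le_omegaOne [Finite G] {p : ℕ} [Fact p.Prime] (hG : IsRegularPGroup p G) :
    Reg.OmegaSub hG 1 ≤ omegaOne p (⊤ : Subgroup G) := by
  intro x hx
  have h1 : x ^ p ^ 1 = 1 := hx
  rw [pow_one] at h1
  exact Subgroup.subset_closure ⟨Subgroup.mem_top x, h1⟩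

theorem omegaOne_le_omega [Finite G] {p : ℕ} [Fact p.Prime] (hG : IsRegularPGroup p G) :
    omegaOne p (⊤ : Subgroup G) ≤ Reg.OmegaSub hG 1 := by
  unfold omegaOne
  rw [Subgroup.closure_le]
  rintro x ⟨-, hx⟩
  show x ^ p ^ 1 = 1
  rwa [pow_one]

/-- in a regular `p`-group with `|Ω₁| ≤ p²`, `|G| ≤ p² |℧₁|` -/
theorem card_le_agemo [Finite G] {p : ℕ} [Fact p.Prime] (hG : IsRegularPGroup p G)
    (hO : Nat.card (omegaOne p (⊤ : Subgroup G)) ≤ p ^ 2) :
    Nat.card G ≤ p ^ 2 * Nat.card (Subgroup.closure (Reg2.powSet p (⊤ : Subgroup G))) := by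
  rw [← card_agemo_mul_card_omega hG, mul_comm]
  exact Nat.mul_le_mul_right _ ((Subgroup.card_le_of_le (omega_le_omegaOne hG)).trans hO)

/-- cardinality of the image of a subgroup containing the kernel in the quotient -/
theorem card_map_mk_mul [Finite G] (U K : Subgroup G) [U.Normal] (hUK : U ≤ K) :
    Nat.card (K.map (QuotientGroup.mk' U)) * Nat.card U = Nat.card K := by
  have h1 : (K.map (QuotientGroup.mk' U)).index = K.index := by
    rw [← Subgroup.index_comap_of_surjective _ (QuotientGroup.mk'_surjective U),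
      QuotientGroup.comap_map_mk', sup_eq_right.mpr hUK]
  have h2 := Subgroup.card_mul_index (K.map (QuotientGroup.mk' U))
  rw [h1] at h2
  have h3 := Subgroup.card_mul_index K
  have h4 := Subgroup.card_mul_index U
  rw [Subgroup.index_eq_card U] at h4
  have hpos : 0 < K.index := Nat.pos_of_ne_zero Subgroup.index_ne_zero_of_finite
  have : Nat.card (K.map (QuotientGroup.mk' U)) * Nat.card U * K.index = Nat.card K * K.index := by
    rw [h3, ← h4, ← h2]
    ring
  exact Nat.eq_of_mul_eq_mul_right hpos this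

/-- in a finite `p`-group, if `V < A₁ < A₂` and `|G : V| ≤ p²` then `A₂ = ⊤` -/
theorem eq_top_of_chain [Finite G] {p : ℕ} [hp : Fact p.Prime] (hG : IsPGroup p G)
    {V A₁ A₂ : Subgroup G} (hV : Nat.card G ≤ p ^ 2 * Nat.card V) (h1 : V < A₁) (h2 : A₁ < A₂) :
    A₂ = ⊤ := by
  obtain ⟨n, hn⟩ := IsPGroup.iff_card.mp hG
  obtain ⟨v, -, hv⟩ := Cfsg.Agent.S0662.card_pow hn V
  obtain ⟨a₁, -, ha₁⟩ := Cfsg.Agent.S0662.card_pow hn A₁
  obtain ⟨a₂, ha₂n, ha₂⟩ := Cfsg.Agent.S0662.card_pow hn A₂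
  have l1 := Cfsg.Agent.S0662.exp_lt h1 hv ha₁
  have l2 := Cfsg.Agent.S0662.exp_lt h2 ha₁ ha₂
  rw [hn, hv, ← pow_add] at hV
  have l3 : n ≤ 2 + v := (Nat.pow_le_pow_iff_right hp.out.one_lt).mp hV
  have : a₂ = n := by omega
  apply Subgroup.eq_top_of_card_eq
  rw [ha₂, hn, this]

/-- in a finite `p`-group, if `U ≤ γ₂` is normal with `|γ₂ : U| ≤ p²` then `γ₄ ≤ U` -/
theorem lcs_three_le [Finite G] {p : ℕ} [hp : Fact p.Prime] (hG : IsPGroup p G) (U : Subgroup G)
    [U.Normal] (hU : U ≤ (⊤ : Subgroup G).lowerCentralSeries 1)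
    (hcard : Nat.card ((⊤ : Subgroup G).lowerCentralSeries 1) ≤ p ^ 2 * Nat.card U) :
    (⊤ : Subgroup G).lowerCentralSeries 3 ≤ U := by
  have hQ : IsPGroup p (G ⧸ U) := hG.to_quotient U
  haveI : Group.IsNilpotent (G ⧸ U) := hQ.isNilpotent
  obtain ⟨n, hn⟩ := IsPGroup.iff_card.mp hQ
  have hmap : ∀ i, ((⊤ : Subgroup G).lowerCentralSeries i).map (QuotientGroup.mk' U) =
      (⊤ : Subgroup (G ⧸ U)).lowerCentralSeries i := by
    intro i
    rw [Subgroup.map_lowerCentralSeries,
      Subgroup.map_top_of_surjective _ (QuotientGroup.mk'_surjective U)]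
  have h1 : Nat.card ((⊤ : Subgroup (G ⧸ U)).lowerCentralSeries 1) ≤ p ^ 2 := by
    rw [← hmap 1]
    have h := card_map_mk_mul U _ hU
    rw [← h] at hcard
    exact Nat.le_of_mul_le_mul_right hcard Nat.card_pos
  have h3 : (⊤ : Subgroup (G ⧸ U)).lowerCentralSeries 3 = ⊥ := by
    by_contra hne3
    have hne2 : (⊤ : Subgroup (G ⧸ U)).lowerCentralSeries 2 ≠ ⊥ := fun h0 =>
      hne3 (le_bot_iff.mp (h0 ▸ Subgroup.lowerCentralSeries_antitone _ (by norm_num)))
    have hne1 : (⊤ : Subgroup (G ⧸ U)).lowerCentralSeries 1 ≠ ⊥ := fun h0 =>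
      hne2 (le_bot_iff.mp (h0 ▸ Subgroup.lowerCentralSeries_antitone _ (by norm_num)))
    obtain ⟨e1, -, he1⟩ := Cfsg.Agent.S0662.card_pow hn ((⊤ : Subgroup (G ⧸ U)).lowerCentralSeries 1)
    obtain ⟨e2, -, he2⟩ := Cfsg.Agent.S0662.card_pow hn ((⊤ : Subgroup (G ⧸ U)).lowerCentralSeries 2)
    obtain ⟨e3, -, he3⟩ := Cfsg.Agent.S0662.card_pow hn ((⊤ : Subgroup (G ⧸ U)).lowerCentralSeries 3)
    have l1 := Cfsg.Agent.S0662.exp_lt (Cfsg.Agent.S0662.lcs_strict hne1) he2 he1
    have l2 := Cfsg.Agent.S0662.exp_lt (Cfsg.Agent.S0662.lcs_strict hne2) he3 he2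
    rw [he1] at h1
    have l3 : e1 ≤ 2 := (Nat.pow_le_pow_iff_right hp.out.one_lt).mp h1
    have : e3 = 0 := by omega
    rw [this, pow_zero] at he3
    exact hne3 (Subgroup.card_eq_one.mp he3)
  rw [← hmap 3, Subgroup.map_eq_bot_iff, QuotientGroup.ker_mk'] at h3
  exact h3

/-- `℧₁` of a normal subgroup is normal -/
theorem agemo_normal (p : ℕ) (D : Subgroup G) [hD : D.Normal] :
    (Subgroup.closure (Reg2.powSet p D)).Normal := by
  constructor
  intro n hn g
  induction hn using Subgroup.closure_induction with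
  | mem z hz =>
    obtain ⟨x, hx, rfl⟩ := hz
    refine Subgroup.subset_closure ⟨g * x * g⁻¹, hD.conj_mem x hx g, ?_⟩
    rw [conj_pow]
  | one =>
    rw [mul_one, mul_inv_cancel]
    exact Subgroup.one_mem _
  | mul a b _ _ iha ihb =>
    have e : g * (a * b) * g⁻¹ = (g * a * g⁻¹) * (g * b * g⁻¹) := by group
    rw [e]
    exact Subgroup.mul_mem _ iha ihb
  | inv a _ iha =>
    have e : g * a⁻¹ * g⁻¹ = (g * a * g⁻¹)⁻¹ := by group
    rw [e]
    exact Subgroup.inv_mem _ iha

/-- `℧₁` of a subgroup `D`, computed in `D` and mapped to `G` -/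
theorem map_agemo (p : ℕ) (D : Subgroup G) :
    (Subgroup.closure (Reg2.powSet p (⊤ : Subgroup D))).map D.subtype =
      Subgroup.closure (Reg2.powSet p D) := by
  rw [MonoidHom.map_closure]
  congr 1
  ext y
  constructor
  · rintro ⟨x', ⟨x, -, rfl⟩, rfl⟩
    exact ⟨(x : G), x.2, by simp⟩
  · rintro ⟨x, hx, rfl⟩
    exact ⟨(⟨x, hx⟩ : D) ^ p, ⟨⟨x, hx⟩, Subgroup.mem_top _, rfl⟩, by simp⟩

/-- the key step: if `G'` is regular with `|Ω₁(G')| ≤ p²` and `p > 3`, then
`(ab)⁻ᵖ aᵖ bᵖ ∈ ℧₁(G')` -/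
theorem core [Finite G] {p : ℕ} [hp : Fact p.Prime] (hp5 : 3 < p) (hG : IsPGroup p G)
    (hD : IsRegularPGroup p (↥((⊤ : Subgroup G).lowerCentralSeries 1)))
    (hO : Nat.card (omegaOne p (⊤ : Subgroup ↥((⊤ : Subgroup G).lowerCentralSeries 1))) ≤ p ^ 2)
    (a b : G) :
    ((a * b) ^ p)⁻¹ * a ^ p * b ^ p ∈
      Subgroup.closure (Reg2.powSet p ⁅(⊤ : Subgroup G), (⊤ : Subgroup G)⁆) := by
  haveI := agemo_normal p ((⊤ : Subgroup G).lowerCentralSeries 1)
  have hSle : Subgroup.closure (Reg2.powSet p ((⊤ : Subgroup G).lowerCentralSeries 1)) ≤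
      (⊤ : Subgroup G).lowerCentralSeries 1 := Reg2.closure_powSet_le p _
  have hcard : Nat.card ((⊤ : Subgroup G).lowerCentralSeries 1) ≤
      p ^ 2 * Nat.card (Subgroup.closure (Reg2.powSet p ((⊤ : Subgroup G).lowerCentralSeries 1))) := by
    rw [← map_agemo, Subgroup.card_map_of_injective (Subgroup.subtype_injective _)]
    exact card_le_agemo hD hO
  have h3 := lcs_three_le hG _ hSle hcard
  haveI : Group.IsNilpotent G := hG.isNilpotent
  obtain ⟨n, hn⟩ := nilpotent_iff_lowerCentralSeries.mp (inferInstance : Group.IsNilpotent G)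
  have hS : ∀ k, 2 ≤ k → k ≤ n → ∀ d ∈ RegClass.filt G k, d ^ (p.choose k) ∈
      Subgroup.closure (Reg2.powSet p ((⊤ : Subgroup G).lowerCentralSeries 1)) := by
    intro k hk2 _ d hd
    rcases lt_trichotomy k p with hkp | rfl | hkp
    · obtain ⟨t, ht⟩ := hp.out.dvd_choose_self (by omega : k ≠ 0) hkp
      rw [ht, pow_mul']
      refine Subgroup.subset_closure ⟨d ^ t, ?_, rfl⟩
      have h2 : RegClass.filt G k ≤ (⊤ : Subgroup G).lowerCentralSeries 1 :=
        Subgroup.lowerCentralSeries_antitone _ (by omega)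
      exact Subgroup.pow_mem _ (h2 hd) t
    · rw [Nat.choose_self, pow_one]
      have h2 : RegClass.filt G k ≤ (⊤ : Subgroup G).lowerCentralSeries 3 :=
        Subgroup.lowerCentralSeries_antitone _ (by omega)
      exact h3 (h2 hd)
    · rw [Nat.choose_eq_zero_of_lt hkp, pow_zero]
      exact Subgroup.one_mem _
  have hcn : RegClass.filt G (n + 1) = ⊥ := by
    unfold RegClass.filt
    rwa [Nat.add_sub_cancel]
  exact PolySeq.hall_petrescu (H := RegClass.filt G) RegClass.filt_succ_le RegClass.filt_comm_le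
    hcn _ p hS (x := a) (y := b) (Subgroup.mem_top _) (Subgroup.mem_top _)

/-- transfer of the regularity identity from `⟨a, b⟩` to `G` -/
theorem powReg_transfer (p : ℕ) (K : Subgroup G) (x y : K)
    (h : ((x * y) ^ p)⁻¹ * x ^ p * y ^ p ∈
      Subgroup.closure (Reg2.powSet p ⁅(⊤ : Subgroup K), (⊤ : Subgroup K)⁆)) :
    ∃ c ∈ Subgroup.closure (Reg2.powSet p ⁅K, K⁆),
      ((x : G) * (y : G)) ^ p = (x : G) ^ p * (y : G) ^ p * c := by
  have hmap : (Subgroup.closure (Reg2.powSet p ⁅(⊤ : Subgroup K), (⊤ : Subgroup K)⁆)).map K.subtype ≤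
      Subgroup.closure (Reg2.powSet p ⁅K, K⁆) := by
    rw [Subgroup.map_le_iff_le_comap, Subgroup.closure_le]
    rintro z ⟨w, hw, rfl⟩
    refine Subgroup.subset_closure ⟨(w : G), ?_, by simp⟩
    have h3 : (w : G) ∈ Subgroup.map K.subtype ⁅(⊤ : Subgroup K), (⊤ : Subgroup K)⁆ :=
      ⟨w, hw, rfl⟩
    rwa [Subgroup.map_commutator, ← MonoidHom.range_eq_map, Subgroup.range_subtype] at h3
  have h4 := hmap ⟨_, h, rfl⟩
  refine ⟨_, Subgroup.inv_mem _ h4, ?_⟩
  simp only [Subgroup.coe_subtype, Subgroup.coe_mul, Subgroup.coe_inv, Subgroup.coe_pow]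
  group

end basic

/-- a finite `p`-group, `p > 3`, with `|Ω₁| ≤ p²` is regular -/
theorem regular_of_omega_aux {p : ℕ} [hp : Fact p.Prime] (hp5 : 3 < p) (n : ℕ) :
    ∀ (G : Type u) [Group G] [Finite G], Nat.card G = n → IsPGroup p G →
      Nat.card (omegaOne p (⊤ : Subgroup G)) ≤ p ^ 2 → IsRegularPGroup p G := by
  induction n using Nat.strong_induction_on with
  | _ n ih =>
    intro G _ _ hn hG hO
    have h1 : Reg2.PowReg p G := by
      intro a b
      have haK : a ∈ Subgroup.closure ({a, b} : Set G) := Subgroup.subset_closure (by simp)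
      have hbK : b ∈ Subgroup.closure ({a, b} : Set G) := Subgroup.subset_closure (by simp)
      have hKp : IsPGroup p (Subgroup.closure ({a, b} : Set G)) := hG.to_subgroup _
      by_cases hsub : Subsingleton (Subgroup.closure ({a, b} : Set G))
      · have ha : a = 1 := congrArg Subtype.val
          (Subsingleton.elim (⟨a, haK⟩ : Subgroup.closure ({a, b} : Set G)) 1)
        have hb : b = 1 := congrArg Subtype.val
          (Subsingleton.elim (⟨b, hbK⟩ : Subgroup.closure ({a, b} : Set G)) 1)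
        exact ⟨1, Subgroup.one_mem _, by rw [ha, hb]; simp⟩
      · haveI : Nontrivial (Subgroup.closure ({a, b} : Set G)) := not_subsingleton_iff_nontrivial.mp hsub
        haveI : Group.IsNilpotent (Subgroup.closure ({a, b} : Set G)) := hKp.isNilpotent
        have hlt : (⊤ : Subgroup (Subgroup.closure ({a, b} : Set G))).lowerCentralSeries 1 <
            (⊤ : Subgroup (Subgroup.closure ({a, b} : Set G))).lowerCentralSeries 0 := by
          apply Cfsg.Agent.S0662.lcs_strict
          rw [Subgroup.lowerCentralSeries_zero]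
          exact top_ne_bot
        have hcard : Nat.card ((⊤ : Subgroup (Subgroup.closure ({a, b} : Set G))).lowerCentralSeries 1) < n := by
          have h1 := card_lt_of_lt hlt
          rw [Subgroup.lowerCentralSeries_zero, Subgroup.card_top] at h1
          exact hn ▸ lt_of_lt_of_le h1 (Subgroup.card_le_card_group _)
        have hOD : Nat.card (omegaOne p (⊤ : Subgroup
            ↥((⊤ : Subgroup (Subgroup.closure ({a, b} : Set G))).lowerCentralSeries 1))) ≤ p ^ 2 :=
          ((card_omegaOne_subgroup_le p _).trans (card_omegaOne_subgroup_le p _)).trans hO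
        have hD := ih _ hcard
          (↥((⊤ : Subgroup (Subgroup.closure ({a, b} : Set G))).lowerCentralSeries 1)) rfl
          (hKp.to_subgroup _) hOD
        have key := core hp5 hKp hD hOD ⟨a, haK⟩ ⟨b, hbK⟩
        exact powReg_transfer p _ ⟨a, haK⟩ ⟨b, hbK⟩ key
    exact ⟨hG, fun a b n => Reg2.powReg_pow hG h1 n a b⟩

theorem regular_of_omega {G : Type u} [Group G] [Finite G] {p : ℕ} [Fact p.Prime] (hp5 : 3 < p)
    (hG : IsPGroup p G) (hO : Nat.card (omegaOne p (⊤ : Subgroup G)) ≤ p ^ 2) :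
    IsRegularPGroup p G :=
  regular_of_omega_aux hp5 _ G rfl hG hO

section quotient

variable {G : Type*} [Group G]

/-- in a regular `p`-group, `|Ω₁| = |G : ℧₁|` -/
theorem card_omega_eq_index [Finite G] {p : ℕ} [Fact p.Prime] (hG : IsRegularPGroup p G) :
    Nat.card (Reg.OmegaSub hG 1) = (Subgroup.closure (Reg2.powSet p (⊤ : Subgroup G))).index := by
  have h1 := card_agemo_mul_card_omega hG
  have h2 := Subgroup.card_mul_index (Subgroup.closure (Reg2.powSet p (⊤ : Subgroup G)))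
  rw [← h2] at h1
  exact Nat.eq_of_mul_eq_mul_left Nat.card_pos h1

/-- in a regular `p`-group, the order of `Ω₁` does not increase in quotients -/
theorem card_omegaOne_quotient_le [Finite G] {p : ℕ} [Fact p.Prime] (hG : IsRegularPGroup p G)
    (T : Subgroup G) [T.Normal] :
    Nat.card (omegaOne p (⊤ : Subgroup (G ⧸ T))) ≤ Nat.card (omegaOne p (⊤ : Subgroup G)) := by
  have hQ : IsRegularPGroup p (G ⧸ T) := Cfsg.Agent.S0641.result hG T
  have hle : Subgroup.closure (Reg2.powSet p (⊤ : Subgroup G)) ≤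
      (Subgroup.closure (Reg2.powSet p (⊤ : Subgroup (G ⧸ T)))).comap (QuotientGroup.mk' T) := by
    rw [Subgroup.closure_le]
    rintro z ⟨x, -, rfl⟩
    exact Subgroup.subset_closure ⟨(x : G ⧸ T), Subgroup.mem_top _, by simp⟩
  have hidx := Subgroup.index_dvd_of_le hle
  rw [Subgroup.index_comap_of_surjective _ (QuotientGroup.mk'_surjective T)] at hidx
  calc Nat.card (omegaOne p (⊤ : Subgroup (G ⧸ T)))
      ≤ Nat.card (Reg.OmegaSub hQ 1) := Subgroup.card_le_of_le (omegaOne_le_omega hQ)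
    _ = (Subgroup.closure (Reg2.powSet p (⊤ : Subgroup (G ⧸ T)))).index := card_omega_eq_index hQ
    _ ≤ (Subgroup.closure (Reg2.powSet p (⊤ : Subgroup G))).index :=
        Nat.le_of_dvd (Nat.pos_of_ne_zero Subgroup.index_ne_zero_of_finite) hidx
    _ = Nat.card (Reg.OmegaSub hG 1) := (card_omega_eq_index hG).symm
    _ ≤ Nat.card (omegaOne p (⊤ : Subgroup G)) := Subgroup.card_le_of_le (omega_le_omegaOne hG)

end quotient

end Cfsg.Agent.Lib.Helper69.Hup
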