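import Mathlib
import Cfsg.Agent.Lib.Helper69.Huppert

set_option autoImplicit false
open Cfsg
open scoped commutatorElement

/-! A regular `p`-group with `|Ω₁| ≤ p²` is metacyclic (helper69). -/

namespace Cfsg.Agent.Lib.Helper69.Hup

open Cfsg.Agent.Lib.Helper75

universe u

variable {G : Type u} [Group G]

theorem comm_of_card_le_sq [Finite G] {p : ℕ} [hp : Fact p.Prime] (hG : IsPGroup p G)
    (h : Nat.card G ≤ p ^ 2) : ∀ a b : G, a * b = b * a := by
  obtain ⟨n, hn⟩ := IsPGroup.iff_card.mp hG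
  rw [hn] at h
  have hn2 : n ≤ 2 := (Nat.pow_le_pow_iff_right hp.out.one_lt).mp h
  interval_cases n
  · rw [pow_zero] at hn
    haveI : Subsingleton G := (Nat.card_eq_one_iff_unique.mp hn).1
    intro a b
    rw [Subsingleton.elim a b]
  · rw [pow_one] at hn
    haveI := isCyclic_of_prime_card hn
    obtain ⟨g, hg⟩ := IsCyclic.exists_generator (α := G)
    intro a b
    obtain ⟨i, rfl⟩ := Subgroup.mem_zpowers_iff.mp (hg a)
    obtain ⟨j, rfl⟩ := Subgroup.mem_zpowers_iff.mp (hg b)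
    rw [← zpow_add, ← zpow_add, add_comm]
  · exact IsPGroup.commutative_of_card_eq_prime_sq hn

/-- a regular `p`-group with `|Ω₁| ≤ p²` is metacyclic -/
theorem metacyclic_of_regular [Finite G] {p : ℕ} [hp : Fact p.Prime] (hG : IsRegularPGroup p G)
    (hO : Nat.card (omegaOne p (⊤ : Subgroup G)) ≤ p ^ 2) : IsMetacyclic G := by
  have hq : Reg2.PowReg p G := powReg_of_regular hG
  set V := Subgroup.closure (Reg2.powSet p (⊤ : Subgroup G)) with hVdef
  have hVset : (V : Set G) = Reg2.powSet p ⊤ := Reg2.closure_powSet hG.1 hq ⊤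
  have hVmem : ∀ x ∈ V, ∃ z : G, x = z ^ p := by
    intro x hx
    have h1 : x ∈ (V : Set G) := hx
    rw [hVset] at h1
    obtain ⟨z, -, rfl⟩ := h1
    exact ⟨z, rfl⟩
  have hVfr : V ≤ frattini G := by
    rw [hVdef, Subgroup.closure_le]
    rintro y ⟨x, -, rfl⟩
    exact Cfsg.Agent.Lib.Helper72.pow_mem_frattini hG.1 x
  have hVcard : Nat.card G ≤ p ^ 2 * Nat.card V := card_le_agemo hG hO
  haveI hVn : V.Normal := agemo_normal p ⊤
  have hfr : ∀ K : Subgroup G, K ⊔ V = ⊤ → K = ⊤ := by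
    intro K hK
    apply frattini_nongenerating
    rw [eq_top_iff, ← hK]
    exact sup_le_sup_left hVfr K
  by_cases hVtop : V = ⊤
  · -- trivial group
    have hbot : (⊥ : Subgroup G) = ⊤ := hfr ⊥ (by rw [bot_sup_eq, hVtop])
    haveI : Subsingleton G := ⟨fun x y => by
      have hx : x ∈ (⊥ : Subgroup G) := hbot ▸ Subgroup.mem_top x
      have hy : y ∈ (⊥ : Subgroup G) := hbot ▸ Subgroup.mem_top y
      rw [Subgroup.mem_bot.mp hx, Subgroup.mem_bot.mp hy]⟩
    exact ⟨⊤, inferInstance, isCyclic_of_subsingleton, isCyclic_of_subsingleton⟩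
  -- generators
  obtain ⟨a, haV⟩ : ∃ a : G, a ∉ V := by
    by_contra hcon
    push Not at hcon
    exact hVtop (eq_top_iff.mpr fun x _ => hcon x)
  have hlt1 : V < Subgroup.zpowers a ⊔ V :=
    lt_of_le_of_ne le_sup_right
      (fun h => haV (h ▸ Subgroup.mem_sup_left (Subgroup.mem_zpowers a)))
  obtain ⟨b, hab⟩ : ∃ b : G, Subgroup.closure ({a, b} : Set G) = ⊤ := by
    by_cases hA : Subgroup.zpowers a ⊔ V = ⊤
    · refine ⟨1, hfr _ ?_⟩
      rw [eq_top_iff, ← hA]
      refine sup_le_sup_right ?_ V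
      rw [Subgroup.zpowers_le]
      exact Subgroup.subset_closure (by simp)
    · obtain ⟨b, hb⟩ : ∃ b : G, b ∉ Subgroup.zpowers a ⊔ V := by
        by_contra hcon
        push Not at hcon
        exact hA (eq_top_iff.mpr fun x _ => hcon x)
      have hlt2 : Subgroup.zpowers a ⊔ V < Subgroup.zpowers b ⊔ (Subgroup.zpowers a ⊔ V) :=
        lt_of_le_of_ne le_sup_right
          (fun h => hb (h ▸ Subgroup.mem_sup_left (Subgroup.mem_zpowers b)))
      have htop := eq_top_of_chain hG.1 hVcard hlt1 hlt2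
      refine ⟨b, hfr _ ?_⟩
      rw [eq_top_iff, ← htop]
      refine sup_le ?_ (sup_le ?_ le_sup_right)
      · exact le_sup_of_le_left
          (by rw [Subgroup.zpowers_le]; exact Subgroup.subset_closure (by simp))
      · exact le_sup_of_le_left
          (by rw [Subgroup.zpowers_le]; exact Subgroup.subset_closure (by simp))
  -- `G' ≤ V`
  have hQcomm : ∀ u v : G ⧸ V, u * v = v * u := by
    apply comm_of_card_le_sq (hG.1.to_quotient V)
    have h1 := Subgroup.card_mul_index V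
    rw [← h1, mul_comm] at hVcard
    rw [← Subgroup.index_eq_card]
    exact Nat.le_of_mul_le_mul_right hVcard Nat.card_pos
  have hDV : (⊤ : Subgroup G).lowerCentralSeries 1 ≤ V := by
    show ⁅(⊤ : Subgroup G), ⊤⁆ ≤ V
    rw [Subgroup.commutator_le]
    intro x _ y _
    rw [← QuotientGroup.eq_one_iff, commutatorElement_def]
    simp only [QuotientGroup.mk_mul, QuotientGroup.mk_inv]
    rw [hQcomm (x : G ⧸ V) y]
    group
  -- `γ₃ ≤ ℧₁(G')`
  have h3 : (⊤ : Subgroup G).lowerCentralSeries 2 ≤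
      Subgroup.closure (Reg2.powSet p ((⊤ : Subgroup G).lowerCentralSeries 1)) := by
    rw [Subgroup.lowerCentralSeries_succ, Subgroup.commutator_le]
    intro x hx y _
    obtain ⟨z, rfl⟩ := hVmem x (hDV hx)
    exact Reg2.comm_pow_mem hq ⊤ (Subgroup.mem_top z) (Subgroup.mem_top y)
  -- `G' ≤ ⟨[a,b]⟩ γ₃`
  have hwD : ⁅a, b⁆ ∈ (⊤ : Subgroup G).lowerCentralSeries 1 :=
    Subgroup.commutator_mem_commutator (Subgroup.mem_top a) (Subgroup.mem_top b)
  haveI hWn : (Subgroup.zpowers ⁅a, b⁆ ⊔ (⊤ : Subgroup G).lowerCentralSeries 2).Normal := by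
    constructor
    intro x hx g
    obtain ⟨y, hy, z, hz, rfl⟩ := Subgroup.mem_sup_of_normal_right.mp hx
    have hyD : y ∈ (⊤ : Subgroup G).lowerCentralSeries 1 := (Subgroup.zpowers_le.mpr hwD) hy
    have e : g * (y * z) * g⁻¹ = (⁅y, g⁆)⁻¹ * y * (g * z * g⁻¹) := by
      rw [commutatorElement_def]; group
    rw [e]
    refine Subgroup.mul_mem _ (Subgroup.mul_mem _ (Subgroup.inv_mem _ (Subgroup.mem_sup_right ?_))
      (Subgroup.mem_sup_left hy)) (Subgroup.mem_sup_right ?_)
    · exact Subgroup.commutator_mem_commutator hyD (Subgroup.mem_top g)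
    · exact (inferInstance : ((⊤ : Subgroup G).lowerCentralSeries 2).Normal).conj_mem z hz g
  have hDW : (⊤ : Subgroup G).lowerCentralSeries 1 ≤
      Subgroup.zpowers ⁅a, b⁆ ⊔ (⊤ : Subgroup G).lowerCentralSeries 2 := by
    set W := Subgroup.zpowers ⁅a, b⁆ ⊔ (⊤ : Subgroup G).lowerCentralSeries 2 with hWdef
    have hcomm_ab : (a : G ⧸ W) * (b : G ⧸ W) = (b : G ⧸ W) * (a : G ⧸ W) := by
      have h1 : ((⁅a, b⁆ : G) : G ⧸ W) = 1 :=
        (QuotientGroup.eq_one_iff _).mpr (Subgroup.mem_sup_left (Subgroup.mem_zpowers _))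
      rw [commutatorElement_def] at h1
      simp only [QuotientGroup.mk_mul, QuotientGroup.mk_inv] at h1
      calc (a : G ⧸ W) * b
          = ((a : G ⧸ W) * b * (a : G ⧸ W)⁻¹ * (b : G ⧸ W)⁻¹) * (b * a) := by group
        _ = b * a := by rw [h1, one_mul]
    have hcl : Subgroup.closure ({(a : G ⧸ W), (b : G ⧸ W)} : Set (G ⧸ W)) = ⊤ := by
      have h1 := congrArg (Subgroup.map (QuotientGroup.mk' W)) hab
      rw [MonoidHom.map_closure,
        Subgroup.map_top_of_surjective _ (QuotientGroup.mk'_surjective W)] at h1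
      rw [← h1]
      congr 1
      simp [Set.image_pair]
    have hcen : ∀ u : G ⧸ W,
        u ∈ Subgroup.centralizer ({(a : G ⧸ W), (b : G ⧸ W)} : Set (G ⧸ W)) := by
      intro u
      have hu : u ∈ Subgroup.closure ({(a : G ⧸ W), (b : G ⧸ W)} : Set (G ⧸ W)) :=
        hcl ▸ Subgroup.mem_top u
      refine (Subgroup.closure_le _).mpr ?_ hu
      intro v hv
      rw [SetLike.mem_coe, Subgroup.mem_centralizer_iff]
      intro t ht
      rcases hv with rfl | rfl <;> rcases ht with rfl | rfl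
      · rfl
      · exact hcomm_ab.symm
      · exact hcomm_ab
      · rfl
    have hQ' : ∀ u v : G ⧸ W, u * v = v * u := by
      intro u v
      have hv : v ∈ Subgroup.closure ({(a : G ⧸ W), (b : G ⧸ W)} : Set (G ⧸ W)) :=
        hcl ▸ Subgroup.mem_top v
      have h1 : v ∈ Subgroup.centralizer ({u} : Set (G ⧸ W)) := by
        refine (Subgroup.closure_le _).mpr ?_ hv
        intro t ht
        rw [SetLike.mem_coe, Subgroup.mem_centralizer_singleton_iff]
        exact (Subgroup.mem_centralizer_iff.mp (hcen u)) t ht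
      exact (Subgroup.mem_centralizer_singleton_iff.mp h1).symm
    show ⁅(⊤ : Subgroup G), ⊤⁆ ≤ W
    rw [Subgroup.commutator_le]
    intro x _ y _
    rw [← QuotientGroup.eq_one_iff, commutatorElement_def]
    simp only [QuotientGroup.mk_mul, QuotientGroup.mk_inv]
    rw [hQ' (x : G ⧸ W) y]
    group
  -- `G'` is cyclic
  have hDcyc : (⊤ : Subgroup G).lowerCentralSeries 1 ≤ Subgroup.zpowers ⁅a, b⁆ := by
    have hfrD : Subgroup.closure (Reg2.powSet p ((⊤ : Subgroup G).lowerCentralSeries 1)) ≤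
        (frattini ↥((⊤ : Subgroup G).lowerCentralSeries 1)).map
          ((⊤ : Subgroup G).lowerCentralSeries 1).subtype := by
      rw [Subgroup.closure_le]
      rintro y ⟨x, hx, rfl⟩
      exact ⟨(⟨x, hx⟩ : ((⊤ : Subgroup G).lowerCentralSeries 1)) ^ p,
        Cfsg.Agent.Lib.Helper72.pow_mem_frattini (hG.1.to_subgroup _) _, rfl⟩
    have htop : Subgroup.zpowers (⟨⁅a, b⁆, hwD⟩ : ((⊤ : Subgroup G).lowerCentralSeries 1)) = ⊤ := by
      apply frattini_nongenerating
      rw [eq_top_iff]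
      intro x _
      obtain ⟨y, hy, z, hz, hyz⟩ := Subgroup.mem_sup_of_normal_right.mp (hDW x.2)
      obtain ⟨i, rfl⟩ := Subgroup.mem_zpowers_iff.mp hy
      obtain ⟨z', hz', rfl⟩ := hfrD (h3 hz)
      have hx : x = (⟨⁅a, b⁆, hwD⟩ : ((⊤ : Subgroup G).lowerCentralSeries 1)) ^ i * z' :=
        Subtype.ext hyz.symm
      rw [hx]
      exact Subgroup.mul_mem _
        (Subgroup.mem_sup_left (Subgroup.zpow_mem _ (Subgroup.mem_zpowers _) i))
        (Subgroup.mem_sup_right hz')
    intro x hx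
    have h1 : (⟨x, hx⟩ : ((⊤ : Subgroup G).lowerCentralSeries 1)) ∈
        Subgroup.zpowers (⟨⁅a, b⁆, hwD⟩ : ((⊤ : Subgroup G).lowerCentralSeries 1)) :=
      htop ▸ Subgroup.mem_top _
    obtain ⟨i, hi⟩ := Subgroup.mem_zpowers_iff.mp h1
    exact Subgroup.mem_zpowers_iff.mpr ⟨i, congrArg Subtype.val hi⟩
  -- a generator `c ∉ V` of a cyclic subgroup containing `G'`
  obtain ⟨c, hcV, hwc⟩ : ∃ c : G, c ∉ V ∧ ⁅a, b⁆ ∈ Subgroup.zpowers c := by
    by_cases hw1 : ⁅a, b⁆ = 1
    · exact ⟨a, haV, hw1 ▸ Subgroup.one_mem _⟩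
    · by_contra hcon
      push Not at hcon
      have hall : ∀ s : ℕ, ∃ c : G, c ^ (p ^ s) = ⁅a, b⁆ := by
        intro s
        induction s with
        | zero => exact ⟨⁅a, b⁆, by simp⟩
        | succ s ih =>
          obtain ⟨c, hc⟩ := ih
          have hcV : c ∈ V := by
            by_contra hcV
            exact hcon c hcV (hc ▸ Subgroup.pow_mem _ (Subgroup.mem_zpowers c) _)
          obtain ⟨z, rfl⟩ := hVmem c hcV
          exact ⟨z, by rw [pow_succ', pow_mul]; exact hc⟩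
      obtain ⟨n, hn⟩ := IsPGroup.iff_card.mp hG.1
      obtain ⟨c, hc⟩ := hall n
      rw [← hn, pow_card_eq_one'] at hc
      exact hw1 hc.symm
  have hDN : (⊤ : Subgroup G).lowerCentralSeries 1 ≤ Subgroup.zpowers c :=
    hDcyc.trans (Subgroup.zpowers_le.mpr hwc)
  haveI hNn : (Subgroup.zpowers c).Normal := by
    constructor
    intro x hx g
    have e : g * x * g⁻¹ = ⁅g, x⁆ * x := by rw [commutatorElement_def]; group
    rw [e]
    exact Subgroup.mul_mem _
      (hDN (Subgroup.commutator_mem_commutator (Subgroup.mem_top g) (Subgroup.mem_top x))) hx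
  refine ⟨Subgroup.zpowers c, hNn, inferInstance, ?_⟩
  have hlt1' : V < Subgroup.zpowers c ⊔ V :=
    lt_of_le_of_ne le_sup_right
      (fun h => hcV (h ▸ Subgroup.mem_sup_left (Subgroup.mem_zpowers c)))
  obtain ⟨g, hg⟩ : ∃ g : G, Subgroup.zpowers g ⊔ Subgroup.zpowers c = ⊤ := by
    by_cases hA : Subgroup.zpowers c ⊔ V = ⊤
    · refine ⟨1, hfr _ ?_⟩
      rw [eq_top_iff, ← hA]
      exact sup_le_sup_right le_sup_right V
    · obtain ⟨g, hg⟩ : ∃ g : G, g ∉ Subgroup.zpowers c ⊔ V := by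
        by_contra hcon
        push Not at hcon
        exact hA (eq_top_iff.mpr fun x _ => hcon x)
      have hlt2 : Subgroup.zpowers c ⊔ V < Subgroup.zpowers g ⊔ (Subgroup.zpowers c ⊔ V) :=
        lt_of_le_of_ne le_sup_right
          (fun h => hg (h ▸ Subgroup.mem_sup_left (Subgroup.mem_zpowers g)))
      have htop := eq_top_of_chain hG.1 hVcard hlt1' hlt2
      refine ⟨g, hfr _ ?_⟩
      rw [← htop, sup_assoc]
  refine ⟨⟨(g : G ⧸ Subgroup.zpowers c), fun q => ?_⟩⟩
  induction q using QuotientGroup.induction_on with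
  | H x =>
    have hx : x ∈ Subgroup.zpowers g ⊔ Subgroup.zpowers c := hg ▸ Subgroup.mem_top x
    obtain ⟨y, hy, z, hz, rfl⟩ := Subgroup.mem_sup_of_normal_right.mp hx
    obtain ⟨i, rfl⟩ := Subgroup.mem_zpowers_iff.mp hy
    refine ⟨i, ?_⟩
    show (g : G ⧸ Subgroup.zpowers c) ^ i = ((g ^ i * z : G) : G ⧸ Subgroup.zpowers c)
    rw [QuotientGroup.mk_mul, (QuotientGroup.eq_one_iff z).mpr hz, mul_one, QuotientGroup.mk_zpow]

end Cfsg.Agent.Lib.Helper69.Hup
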