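import Cfsg.Agent.Lib.Helper96.HyDefs
import Cfsg.Agent.Lib.Helper47.QuadAll

/-!
Project HY (S5992, helper96) piece TYPB (helper69): a nondegenerate subspace of value-count type
`+1` is hyperbolic (has a totally singular subspace of half its dimension).

Proof: by `QFacts.isometric` the quadratic space is isometric to the standard plus-type space
`quadFormPlus (k+1)`; the coordinates `inl` span a totally singular subspace of dimension `k+1`.
-/

set_option autoImplicit false
set_option linter.unusedSectionVars false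
set_option linter.unusedVariables false

namespace Cfsg.Agent.Lib.Helper69.Hy

open Module Polynomial Cfsg.Agent.Lib.Helper96.Sp Cfsg.Agent.Lib.Helper96.Hy
  Cfsg.Agent.Lib.Helper47

universe u

/-- the embedding of the first half of the coordinates -/
def typbInl (F : Type u) [Field F] (m : ℕ) : (Fin m → F) →ₗ[F] (Fin m ⊕ Fin m → F) where
  toFun x := Sum.elim x 0
  map_add' x y := by
    funext j
    rcases j with i | i
    · rfl
    · simp
  map_smul' c x := by
    funext j
    rcases j with i | i
    · rfl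
    · simp

theorem typbInl_injective (F : Type u) [Field F] (m : ℕ) : Function.Injective (typbInl F m) := by
  intro x y h
  funext i
  exact congrFun h (Sum.inl i)

theorem typbInl_quad (F : Type u) [Field F] (m : ℕ) (x : Fin m → F) :
    Cfsg.quadFormPlus m F (typbInl F m x) = 0 := by
  unfold Cfsg.quadFormPlus
  apply Finset.sum_eq_zero
  intro i _
  show x i * 0 = 0
  rw [mul_zero]

section Abstract

variable {F : Type u} [Field F] [Fintype F] {V : Type u} [AddCommGroup V] [Module F V]
  [FiniteDimensional F V] {B : LinearMap.BilinForm F V}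

-- PIECE TYPB
theorem hyp_of_typ (p : ℕ) [Fact p.Prime] [CharP F p] (hS : B.IsSymm) (h2 : (2 : F) ≠ 0)
    (W : Submodule F V) (hW : ND B W) (hT : Typ B W 1) : Hyp B W := by
  obtain ⟨k, hk, hTyp⟩ := hT
  obtain ⟨φ, hφ⟩ := (qfacts (F := F) p).isometric k 1 (↥W) (Fin (k + 1) ⊕ Fin (k + 1) → F)
    (fun w : W => B (w : V) (w : V)) (fun u v : W => 2 * B (u : V) (v : V))
    (Cfsg.quadFormPlus (k + 1) F) (Cfsg.Agent.Lib.Helper66.QuadSTD.plusB (k + 1) F)
    (isQuad_sub hS W) (nondeg_sub h2 W hW) hk
    (Cfsg.Agent.Lib.Helper66.QuadSTD.quadFormPlus_isQuad (k + 1))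
    (Cfsg.Agent.Lib.Helper66.QuadSTD.plusB_nondeg (k + 1)) (by simp; ring) hTyp
    (Cfsg.Agent.Lib.Helper23.Quad.isTyp_quadFormPlus k)
  let j : (Fin (k + 1) → F) →ₗ[F] V :=
    W.subtype ∘ₗ (φ.symm : (Fin (k + 1) ⊕ Fin (k + 1) → F) →ₗ[F] ↥W) ∘ₗ typbInl F (k + 1)
  have hj : Function.Injective j := by
    intro x y h
    have h1 : (φ.symm (typbInl F (k + 1) x) : V) = (φ.symm (typbInl F (k + 1) y) : V) := h
    exact typbInl_injective F (k + 1) (φ.symm.injective (Subtype.ext h1))
  have hjW : ∀ x, j x ∈ W := fun x => (φ.symm (typbInl F (k + 1) x)).2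
  have hjq : ∀ x, B (j x) (j x) = 0 := by
    intro x
    have h1 := hφ (φ.symm (typbInl F (k + 1) x))
    rw [LinearEquiv.apply_symm_apply, typbInl_quad] at h1
    exact h1.symm
  refine ⟨hW, LinearMap.range j, ?_, ?_, ?_⟩
  · rintro _ ⟨x, rfl⟩
    exact hjW x
  · rintro _ ⟨x, rfl⟩ _ ⟨y, rfl⟩
    have h1 := hjq (x + y)
    simp only [map_add, LinearMap.add_apply] at h1
    rw [hjq x, hjq y, hS.eq (j y) (j x)] at h1
    have h3 : 2 * B (j x) (j y) = 0 := by linear_combination h1
    exact (mul_eq_zero.mp h3).resolve_left h2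
  · rw [LinearMap.finrank_range_of_inj hj, Module.finrank_fin_fun, hk]
    ring

end Abstract

end Cfsg.Agent.Lib.Helper69.Hy
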