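import Mathlib
import Cfsg.Agent.Lib.Helper98.O72Defs
import Cfsg.Agent.Lib.Helper98.O72Fix
import Cfsg.Agent.Lib.Helper96.SpTI
import Cfsg.Agent.Lib.Helper31.SpTICntA
import Cfsg.Agent.Lib.Helper12.OAA1

/-!
# S5972 piece O72-CNTA (helper69): the number of totally isotropic `(j+1)`-spaces above a
totally isotropic `j`-space is `1` modulo the characteristic (symmetric forms)

Twin of `Cfsg.Agent.Lib.Helper31.SpTICntA.card_ti_ext_modEq`; the singular vectors of a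
complement of `W₀` in `W₀^⊥` are counted modulo `p` by Chevalley–Warning.
-/

set_option autoImplicit false
set_option linter.unusedSectionVars false
set_option linter.unusedVariables false

namespace Cfsg.Agent.Lib.Helper98.O72

open Module Polynomial Cfsg.Agent.Lib.Helper96.Sp

variable {F : Type*} [Field F] [Fintype F] {V : Type*} [AddCommGroup V] [Module F V]
  [FiniteDimensional F V] {B : LinearMap.BilinForm F V}

/-- Chevalley–Warning: the number of singular vectors of a subspace of dimension at least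
three is divisible by the characteristic. -/
theorem cnta_card_sing_dvd {p : ℕ} [Fact p.Prime] [CharP F p] (C : Submodule F V)
    (hC : 3 ≤ finrank F C) : p ∣ Nat.card {c : C // B (c : V) (c : V) = 0} := by
  classical
  obtain ⟨φ, -⟩ : ∃ φ : (Fin (finrank F C) → F) ≃ₗ[F] C, φ = φ :=
    ⟨(Module.finBasis F C).equivFun.symm, rfl⟩
  obtain ⟨g, hg⟩ : ∃ g : (Fin (finrank F C) → F) →ₗ[F] V, ∀ x, g x = ((φ x : C) : V) :=
    ⟨C.subtype ∘ₗ φ.toLinearMap, fun x => rfl⟩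
  obtain ⟨Q, hQ⟩ : ∃ Q : QuadraticForm F (Fin (finrank F C) → F), ∀ x, Q x = B (g x) (g x) :=
    ⟨LinearMap.BilinMap.toQuadraticMap (B.compl₁₂ g g), fun x => rfl⟩
  have h := Cfsg.Agent.Lib.Helper12.OAA1.card_singular_dvd p Q
    (by rw [Fintype.card_fin]; exact hC)
  have e : ↥{x : Fin (finrank F C) → F | Q x = 0} ≃ {c : C // B (c : V) (c : V) = 0} :=
    Equiv.subtypeEquiv φ.toEquiv (fun x => by
      show Q x = 0 ↔ B ((φ x : C) : V) ((φ x : C) : V) = 0
      rw [hQ, hg])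
  rw [← Nat.card_congr e]
  exact h

theorem cnta_ti_sup (hS : B.IsSymm) (hchar2 : (2 : F) ≠ 0) {W₀ : Submodule F V}
    (hW₀ : Orth B W₀ W₀) {v : V} (hvP : v ∈ B.orthogonal W₀) (hvv : B v v = 0) :
    Orth B (W₀ ⊔ Submodule.span F {v}) (W₀ ⊔ Submodule.span F {v}) := by
  intro x hx x' hx'
  obtain ⟨w, hw, y, hy, rfl⟩ := Submodule.mem_sup.1 hx
  obtain ⟨w', hw', y', hy', rfl⟩ := Submodule.mem_sup.1 hx'
  obtain ⟨a, rfl⟩ := Submodule.mem_span_singleton.1 hy
  obtain ⟨a', rfl⟩ := Submodule.mem_span_singleton.1 hy'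
  have h1 : B w v = 0 := (mem_perp_iff.mp hvP) w hw
  have h2 : B w' v = 0 := (mem_perp_iff.mp hvP) w' hw'
  have h3 : B v w' = 0 := by rw [sym_swap hS hchar2]; exact h2
  simp [hW₀ w hw w' hw', h1, h3, hvv]

/-- PIECE CNTA. -/
theorem card_ti_ext_modEq {p : ℕ} [Fact p.Prime] [CharP F p]
    (hS : B.IsSymm) (hchar2 : (2 : F) ≠ 0) (hN : ND B ⊤)
    (W₀ : Submodule F V) (hW₀ : Orth B W₀ W₀) (j : ℕ) (hj : finrank F W₀ = j)
    (hjd : 2 * j + 3 ≤ finrank F V) :
    Nat.card {W₁ : Submodule F V // W₀ ≤ W₁ ∧ finrank F W₁ = j + 1 ∧ Orth B W₁ W₁} ≡ 1 [MOD p] := by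
  classical
  have : Finite V := Module.finite_of_finite F
  have hW₀P : W₀ ≤ B.orthogonal W₀ := orth_iff_le_perp.mp hW₀
  have hPfin : finrank F ↥(B.orthogonal W₀) + j = finrank F V := by
    have h := finrank_inf_perp hS hchar2 hN (le_top : W₀ ≤ ⊤) hN
    rw [top_inf_eq, finrank_top, hj] at h
    exact h
  -- a complement `C` of `W₀` in `W₀^⊥`
  obtain ⟨C', hC'⟩ := Submodule.exists_isCompl W₀
  obtain ⟨C, hCdef⟩ : ∃ C : Submodule F V, C = C' ⊓ B.orthogonal W₀ := ⟨_, rfl⟩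
  have hCP : C ≤ B.orthogonal W₀ := hCdef ▸ inf_le_right
  have hdisj : W₀ ⊓ C = ⊥ := by
    apply le_bot_iff.1
    rw [hCdef]
    calc W₀ ⊓ (C' ⊓ B.orthogonal W₀) ≤ W₀ ⊓ C' := inf_le_inf_left _ inf_le_left
      _ = ⊥ := hC'.inf_eq_bot
  have hsup : W₀ ⊔ C = B.orthogonal W₀ := by
    rw [hCdef, ← sup_inf_assoc_of_le C' hW₀P, hC'.sup_eq_top, top_inf_eq]
  have hCfin : finrank F C + j = finrank F ↥(B.orthogonal W₀) := by
    have h := Submodule.finrank_sup_add_finrank_inf_eq W₀ C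
    rw [hdisj, finrank_bot, add_zero, hsup, hj] at h
    omega
  have hC3 : 3 ≤ finrank F C := by omega
  have hF1 : ∀ w ∈ W₀, ∀ c ∈ B.orthogonal W₀, B (w + c) (w + c) = B c c := by
    intro w hw c hc
    have h1 : B w c = 0 := (mem_perp_iff.mp hc) w hw
    have h2 : B c w = 0 := by rw [sym_swap hS hchar2]; exact h1
    simp [hW₀ w hw w hw, h1, h2]
  -- the singular vectors of `W₀^⊥`
  have hT : Nat.card {v : V // v ∈ B.orthogonal W₀ ∧ B v v = 0} =
      Fintype.card F ^ j * Nat.card {c : C // B (c : V) (c : V) = 0} := by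
    let f : W₀ × {c : C // B (c : V) (c : V) = 0} →
        {v : V // v ∈ B.orthogonal W₀ ∧ B v v = 0} :=
      fun x => ⟨(x.1 : V) + (x.2.1 : V),
        (B.orthogonal W₀).add_mem (hW₀P x.1.2) (hCP x.2.1.2),
        by rw [hF1 _ x.1.2 _ (hCP x.2.1.2)]; exact x.2.2⟩
    have hf : Function.Bijective f := by
      constructor
      · rintro ⟨w, c⟩ ⟨w', c'⟩ h
        have h' : (w : V) + (c.1 : V) = (w' : V) + (c'.1 : V) := congrArg Subtype.val h
        have hmem : (w : V) - (w' : V) ∈ W₀ ⊓ C := by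
          refine ⟨W₀.sub_mem w.2 w'.2, ?_⟩
          have h'' : (w : V) - (w' : V) = (c'.1 : V) - (c.1 : V) := by
            rw [sub_eq_sub_iff_add_eq_add]
            exact h'.trans (add_comm _ _)
          rw [h'']
          exact C.sub_mem c'.1.2 c.1.2
        rw [hdisj, Submodule.mem_bot, sub_eq_zero] at hmem
        have hc : (c.1 : V) = (c'.1 : V) := by
          rw [hmem] at h'
          exact add_left_cancel h'
        exact Prod.ext (Subtype.ext hmem) (Subtype.ext (Subtype.ext hc))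
      · rintro ⟨v, hv, hvv⟩
        rw [← hsup] at hv
        obtain ⟨w, hw, c, hc, rfl⟩ := Submodule.mem_sup.1 hv
        refine ⟨(⟨w, hw⟩, ⟨⟨c, hc⟩, ?_⟩), rfl⟩
        rw [← hF1 w hw c (hCP hc)]
        exact hvv
    rw [← Nat.card_congr (Equiv.ofBijective f hf), Nat.card_prod,
      Cfsg.Agent.Lib.Helper31.SpTICntA.card_sub, hj]
  have hφ : ∀ v : V, v ∈ B.orthogonal W₀ → v ∉ W₀ → B v v = 0 →
      W₀ ≤ W₀ ⊔ Submodule.span F {v} ∧ finrank F ↥(W₀ ⊔ Submodule.span F {v}) = j + 1 ∧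
        Orth B (W₀ ⊔ Submodule.span F {v}) (W₀ ⊔ Submodule.span F {v}) := by
    intro v hvP hvW hvv
    have hv0 : v ≠ 0 := fun h => hvW (h ▸ W₀.zero_mem)
    refine ⟨le_sup_left, ?_, cnta_ti_sup hS hchar2 hW₀ hvP hvv⟩
    have hdis : Disjoint W₀ (Submodule.span F {v}) :=
      (Submodule.disjoint_span_singleton' hv0).2 hvW
    have h := Submodule.finrank_sup_add_finrank_inf_eq W₀ (Submodule.span F {v})
    rw [disjoint_iff.1 hdis, finrank_bot, add_zero, hj, finrank_span_singleton hv0] at h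
    exact h
  have hmemP : ∀ (W₁ : Submodule F V), W₀ ≤ W₁ → Orth B W₁ W₁ → ∀ v ∈ W₁,
      v ∈ B.orthogonal W₀ :=
    fun W₁ h1 h2 v hv => mem_perp_iff.mpr (fun w hw => h2 w (h1 hw) v hv)
  let e : {v : V // v ∈ B.orthogonal W₀ ∧ v ∉ W₀ ∧ B v v = 0} ≃
      Σ W₁ : {W₁ : Submodule F V // W₀ ≤ W₁ ∧ finrank F W₁ = j + 1 ∧ Orth B W₁ W₁},
        {v : V // v ∈ W₁.1 ∧ v ∉ W₀} :=
    { toFun := fun v => ⟨⟨W₀ ⊔ Submodule.span F {v.1}, hφ v.1 v.2.1 v.2.2.1 v.2.2.2⟩,
        ⟨v.1, Submodule.mem_sup_right (Submodule.mem_span_singleton_self v.1), v.2.2.1⟩⟩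
      invFun := fun s => ⟨s.2.1, hmemP s.1.1 s.1.2.1 s.1.2.2.2 s.2.1 s.2.2.1, s.2.2.2,
        s.1.2.2.2 s.2.1 s.2.2.1 s.2.1 s.2.2.1⟩
      left_inv := fun v => rfl
      right_inv := fun s => by
        apply Sigma.subtype_ext
        · apply Subtype.ext
          show W₀ ⊔ Submodule.span F {s.2.1} = s.1.1
          apply Submodule.eq_of_le_of_finrank_eq
          · exact sup_le s.1.2.1 ((Submodule.span_singleton_le_iff_mem _ _).2 s.2.2.1)
          · rw [(hφ s.2.1 (hmemP s.1.1 s.1.2.1 s.1.2.2.2 s.2.1 s.2.2.1) s.2.2.2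
              (s.1.2.2.2 s.2.1 s.2.2.1 s.2.1 s.2.2.1)).2.1, s.1.2.2.1]
        · rfl }
  have hS5 : Nat.card {v : V // v ∈ B.orthogonal W₀ ∧ v ∉ W₀ ∧ B v v = 0} +
      Fintype.card F ^ j = Nat.card {v : V // v ∈ B.orthogonal W₀ ∧ B v v = 0} := by
    have h1 : Nat.card {v : V // v ∈ B.orthogonal W₀ ∧ v ∉ W₀ ∧ B v v = 0} =
        ({v : V | v ∈ B.orthogonal W₀ ∧ B v v = 0} \ (W₀ : Set V)).ncard := by
      rw [← Nat.card_coe_set_eq]
      apply Nat.card_congr
      exact Equiv.subtypeEquivRight (fun v => by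
        simp only [Set.mem_diff, Set.mem_setOf_eq, SetLike.mem_coe]
        tauto)
    have h2 := Set.ncard_sdiff_add_ncard_of_subset (s := (W₀ : Set V))
      (t := {v : V | v ∈ B.orthogonal W₀ ∧ B v v = 0})
      (fun x hx => ⟨hW₀P hx, hW₀ x hx x hx⟩) (Set.toFinite _)
    have h3 : (W₀ : Set V).ncard = Fintype.card F ^ j := by
      rw [← Nat.card_coe_set_eq, ← hj]
      exact Cfsg.Agent.Lib.Helper31.SpTICntA.card_sub W₀
    have h4 : Nat.card {v : V // v ∈ B.orthogonal W₀ ∧ B v v = 0} =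
        ({v : V | v ∈ B.orthogonal W₀ ∧ B v v = 0}).ncard :=
      Nat.card_coe_set_eq {v : V | v ∈ B.orthogonal W₀ ∧ B v v = 0}
    rw [h1, ← h3, h4]
    exact h2
  haveI : Fintype {W₁ : Submodule F V // W₀ ≤ W₁ ∧ finrank F W₁ = j + 1 ∧ Orth B W₁ W₁} :=
    Fintype.ofFinite _
  have hcard1 := Nat.card_congr e
  rw [Nat.card_sigma] at hcard1
  have hfib : ∀ W₁ : {W₁ : Submodule F V // W₀ ≤ W₁ ∧ finrank F W₁ = j + 1 ∧ Orth B W₁ W₁},
      Nat.card {v : V // v ∈ W₁.1 ∧ v ∉ W₀} = Fintype.card F ^ (j + 1) - Fintype.card F ^ j := by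
    intro W₁
    rw [Cfsg.Agent.Lib.Helper31.SpTICntA.card_diff W₁.2.1, W₁.2.2.1, hj]
  simp only [hfib] at hcard1
  rw [Finset.sum_const, Finset.card_univ, smul_eq_mul] at hcard1
  rw [hcard1, hT] at hS5
  obtain ⟨k, hk⟩ := cnta_card_sing_dvd (p := p) (B := B) C hC3
  rw [hk] at hS5
  rw [Nat.card_eq_fintype_card]
  have hq1 : 1 ≤ Fintype.card F := Fintype.card_pos
  have hpq0 : p ∣ Fintype.card F :=
    (CharP.cast_eq_zero_iff F p (Fintype.card F)).1 (Nat.cast_card_eq_zero F)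
  generalize Fintype.card {W₁ : Submodule F V // W₀ ≤ W₁ ∧ finrank F W₁ = j + 1 ∧ Orth B W₁ W₁}
    = c at hS5 ⊢
  generalize Fintype.card F = q at hS5 hq1 hpq0
  have hqj : 0 < q ^ j := pow_pos hq1 j
  have key : c * q + 1 = p * k + c := by
    have h2 : q ^ j ≤ q ^ (j + 1) := Nat.pow_le_pow_right hq1 (by omega)
    have h3 : ((q : ℤ) ^ j) * ((c : ℤ) * q + 1 - p * k - c) = 0 := by
      have := congrArg (Nat.cast : ℕ → ℤ) hS5
      push_cast [Nat.cast_sub h2] at this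
      linear_combination this
    have h4 : ((c : ℤ) * q + 1 - p * k - c) = 0 := by
      rcases mul_eq_zero.1 h3 with h | h
      · have : (0 : ℤ) < (q : ℤ) ^ j := by exact_mod_cast hqj
        omega
      · exact h
    have h5 : ((c * q + 1 : ℕ) : ℤ) = ((p * k + c : ℕ) : ℤ) := by push_cast; linarith
    exact_mod_cast h5
  have hpq : (q : ZMod p) = 0 := (ZMod.natCast_eq_zero_iff q p).2 hpq0
  have hc1 : ((c : ℕ) : ZMod p) = ((1 : ℕ) : ZMod p) := by
    have := congrArg (Nat.cast : ℕ → ZMod p) key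
    push_cast at this
    rw [hpq, mul_zero, zero_add, ZMod.natCast_self, zero_mul, zero_add] at this
    simpa using this.symm
  exact (ZMod.natCast_eq_natCast_iff c 1 p).1 hc1

end Cfsg.Agent.Lib.Helper98.O72
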