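import Mathlib
import Cfsg.Agent.Lib.Helper36.R23Defs
import Cfsg.Agent.Lib.Helper24.UProdAll
import Cfsg.Agent.Lib.Helper24.CommFAll

/-!
# S1788 piece R23-E8 (helper69): `E_8(F)`, `char F = 2`, has an elementary abelian subgroup of
order at least 8

Generic lemma: three positive roots `r₁ < r₂ < r₃` of a tabulated Chevalley datum with pairwise
trivial commutator formula give an injective homomorphism `F × F × F → D.group F`.
-/

set_option autoImplicit false

namespace Cfsg.Agent.Lib.Helper69.R23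

open Cfsg Cfsg.Lie Cfsg.Agent.Lib.Helper36.R23 Cfsg.Agent.Lib.Helper24

section generic

variable {F : Type} [Field F]

/-- root elements of two roots with empty commutator formula commute -/
theorem e8_comm (D : ChevalleyDatum) (hD : D ∈ chevList) (r s : ℕ) (hr : r < D.nroots)
    (hs : s < D.nroots) (hrs : s ≠ r) (hneg : s ≠ D.neg r) (hc : D.commTerms r s = [])
    (t u : F) : Commute (xGL D hD r t) (xGL D hD s u) := by
  have h := comm_formula (F := F) D hD r s hr hs hrs hneg t u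
  have hw : D.commWord F r s t u = [] := by
    unfold ChevalleyDatum.commWord
    rw [hc]
    rfl
  rw [hw, wordMat_nil, mul_one] at h
  show xGL D hD r t * xGL D hD s u = xGL D hD s u * xGL D hD r t
  apply Units.ext
  rw [Units.val_mul, Units.val_mul, xGL_val, xGL_val]
  exact h.symm

theorem e8_mem_posGE (D : ChevalleyDatum) (hD : D ∈ chevList) (k r : ℕ) (hr : D.IsPosRoot r)
    (hk : k ≤ r) (t : F) : xGL D hD r t ∈ posGE F D k :=
  Subgroup.subset_closure ⟨r, t, hr, hk, rfl⟩

theorem e8_generic [Fintype F] [CharP F 2] (D : ChevalleyDatum) (hD : D ∈ chevList)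
    (r₁ r₂ r₃ B₁ B₂ B₃ : ℕ)
    (h1 : D.IsPosRoot r₁) (h2 : D.IsPosRoot r₂) (h3 : D.IsPosRoot r₃)
    (h12 : r₁ < r₂) (h23 : r₂ < r₃)
    (hB1 : BData D r₁ B₁) (hB2 : BData D r₂ B₂) (hB3 : BData D r₃ B₃)
    (c12 : D.commTerms r₁ r₂ = []) (c13 : D.commTerms r₁ r₃ = [])
    (c23 : D.commTerms r₂ r₃ = [])
    (n12 : r₂ ≠ D.neg r₁) (n13 : r₃ ≠ D.neg r₁) (n23 : r₃ ≠ D.neg r₂) :
    PRankAtLeast 2 3 ↥(D.group F) := by
  have k12 : ∀ t u : F, Commute (xGL D hD r₁ t) (xGL D hD r₂ u) :=
    e8_comm D hD r₁ r₂ h1.1 h2.1 (by omega) n12 c12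
  have k13 : ∀ t u : F, Commute (xGL D hD r₁ t) (xGL D hD r₃ u) :=
    e8_comm D hD r₁ r₃ h1.1 h3.1 (by omega) n13 c13
  have k23 : ∀ t u : F, Commute (xGL D hD r₂ t) (xGL D hD r₃ u) :=
    e8_comm D hD r₂ r₃ h2.1 h3.1 (by omega) n23 c23
  let f : Multiplicative (F × F × F) →* ↥(D.group F) :=
    { toFun := fun v => ⟨xGL D hD r₁ (Multiplicative.toAdd v).1 *
          xGL D hD r₂ (Multiplicative.toAdd v).2.1 * xGL D hD r₃ (Multiplicative.toAdd v).2.2,
        (D.group F).mul_mem ((D.group F).mul_mem (xGL_mem_group D hD r₁ _)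
          (xGL_mem_group D hD r₂ _)) (xGL_mem_group D hD r₃ _)⟩
      map_one' := by
        apply Subtype.ext
        show xGL D hD r₁ (0 : F) * xGL D hD r₂ (0 : F) * xGL D hD r₃ (0 : F) = 1
        rw [xGL_zero, xGL_zero, xGL_zero, mul_one, mul_one]
      map_mul' := fun v w => by
        apply Subtype.ext
        show xGL D hD r₁ ((Multiplicative.toAdd v).1 + (Multiplicative.toAdd w).1) *
            xGL D hD r₂ ((Multiplicative.toAdd v).2.1 + (Multiplicative.toAdd w).2.1) *
            xGL D hD r₃ ((Multiplicative.toAdd v).2.2 + (Multiplicative.toAdd w).2.2) =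
          (xGL D hD r₁ (Multiplicative.toAdd v).1 * xGL D hD r₂ (Multiplicative.toAdd v).2.1 *
            xGL D hD r₃ (Multiplicative.toAdd v).2.2) *
          (xGL D hD r₁ (Multiplicative.toAdd w).1 * xGL D hD r₂ (Multiplicative.toAdd w).2.1 *
            xGL D hD r₃ (Multiplicative.toAdd w).2.2)
        rw [xGL_add D hD r₁ h1.1, xGL_add D hD r₂ h2.1, xGL_add D hD r₃ h3.1,
          (k12 _ _).mul_mul_mul_comm, ((k13 _ _).mul_left (k23 _ _)).mul_mul_mul_comm] }
  have hf : ∀ v : Multiplicative (F × F × F),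
      ((f v : ↥(D.group F)) : GL D.Idx F) = xGL D hD r₁ (Multiplicative.toAdd v).1 *
          xGL D hD r₂ (Multiplicative.toAdd v).2.1 * xGL D hD r₃ (Multiplicative.toAdd v).2.2 :=
    fun v => rfl
  refine prank_of_hom (V := F × F × F) ?_ f ?_ ?_
  · intro v
    exact Prod.ext (CharTwo.add_self_eq_zero _)
      (Prod.ext (CharTwo.add_self_eq_zero _) (CharTwo.add_self_eq_zero _))
  · rw [injective_iff_map_eq_one]
    intro v hv
    have hv' : xGL D hD r₁ (Multiplicative.toAdd v).1 *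
        xGL D hD r₂ (Multiplicative.toAdd v).2.1 * xGL D hD r₃ (Multiplicative.toAdd v).2.2 = 1 := by
      rw [← hf v, hv]
      rfl
    -- first coordinate
    have ha : (Multiplicative.toAdd v).1 = 0 := by
      apply eq_zero_of_xGL_mem D hD r₁ B₁ h1 hB1
      have e : xGL D hD r₁ (Multiplicative.toAdd v).1 =
          (xGL D hD r₂ (Multiplicative.toAdd v).2.1 * xGL D hD r₃ (Multiplicative.toAdd v).2.2)⁻¹ := by
        rw [eq_inv_iff_mul_eq_one, ← mul_assoc]
        exact hv'
      rw [e]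
      exact (posGE F D (r₁ + 1)).inv_mem ((posGE F D (r₁ + 1)).mul_mem
        (e8_mem_posGE D hD _ r₂ h2 (by omega) _) (e8_mem_posGE D hD _ r₃ h3 (by omega) _))
    rw [ha, xGL_zero, one_mul] at hv'
    have hb : (Multiplicative.toAdd v).2.1 = 0 := by
      apply eq_zero_of_xGL_mem D hD r₂ B₂ h2 hB2
      have e : xGL D hD r₂ (Multiplicative.toAdd v).2.1 =
          (xGL D hD r₃ (Multiplicative.toAdd v).2.2)⁻¹ := by
        rw [eq_inv_iff_mul_eq_one]
        exact hv'
      rw [e]
      exact (posGE F D (r₂ + 1)).inv_mem (e8_mem_posGE D hD _ r₃ h3 (by omega) _)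
    rw [hb, xGL_zero, one_mul] at hv'
    have hc : (Multiplicative.toAdd v).2.2 = 0 := by
      apply eq_zero_of_xGL_mem D hD r₃ B₃ h3 hB3
      rw [hv']
      exact (posGE F D (r₃ + 1)).one_mem
    have hz : Multiplicative.toAdd v = 0 := Prod.ext ha (Prod.ext hb hc)
    exact hz
  · have hq : 2 ≤ Fintype.card F := Fintype.one_lt_card
    rw [Nat.card_eq_fintype_card, Fintype.card_prod, Fintype.card_prod]
    calc 8 = 2 * (2 * 2) := by norm_num
      _ ≤ Fintype.card F * (Fintype.card F * Fintype.card F) :=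
        Nat.mul_le_mul hq (Nat.mul_le_mul hq hq)

end generic

theorem e8_pos237 : chevE8.IsPosRoot 237 := by decide +kernel
theorem e8_pos238 : chevE8.IsPosRoot 238 := by decide +kernel
theorem e8_pos239 : chevE8.IsPosRoot 239 := by decide +kernel
theorem e8_c12 : chevE8.commTerms 237 238 = [] := by decide +kernel
theorem e8_c13 : chevE8.commTerms 237 239 = [] := by decide +kernel
theorem e8_c23 : chevE8.commTerms 238 239 = [] := by decide +kernel
theorem e8_n12 : (238 : ℕ) ≠ chevE8.neg 237 := by decide +kernel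
theorem e8_n13 : (239 : ℕ) ≠ chevE8.neg 237 := by decide +kernel
theorem e8_n23 : (239 : ℕ) ≠ chevE8.neg 238 := by decide +kernel

theorem e8 : E8Stmt := by
  intro F _ _ _
  have hD : chevE8 ∈ chevList := by simp [chevList]
  have hpre := preChk_of_mem chevE8 hD
  exact e8_generic chevE8 hD 237 238 239 _ _ _ e8_pos237 e8_pos238 e8_pos239 (by norm_num)
    (by norm_num)
    (bkChk_sound chevE8 hpre posMaskE8 bkTabE8 posChk_E8 bkChk_E8 237 e8_pos237)
    (bkChk_sound chevE8 hpre posMaskE8 bkTabE8 posChk_E8 bkChk_E8 238 e8_pos238)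
    (bkChk_sound chevE8 hpre posMaskE8 bkTabE8 posChk_E8 bkChk_E8 239 e8_pos239)
    e8_c12 e8_c13 e8_c23 e8_n12 e8_n13 e8_n23

end Cfsg.Agent.Lib.Helper69.R23
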