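import Mathlib

/-!
# S0496, piece SMOOTH: the `7`-smooth numbers up to `1092`
-/

set_option autoImplicit false

namespace Cfsg.Agent.S496

theorem smooth_aux_le {p a N : ℕ} (hp : 2 ≤ p) (k : ℕ) (hN : N < p ^ (k + 1)) (h0 : 0 < N)
    (hd : p ^ a ∣ N) : a ≤ k := by
  by_contra hlt
  rw [not_le] at hlt
  have h1 : p ^ (k + 1) ≤ p ^ a := Nat.pow_le_pow_right (by omega) hlt
  have h2 : p ^ a ≤ N := Nat.le_of_dvd h0 hd
  omega

theorem smooth_le {N : ℕ} (h0 : 0 < N) (hle : N ≤ 1092) (hs : ∀ p : ℕ, p.Prime → p ∣ N → p ≤ 7) :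
    N ∣ 2 ^ 10 * 3 ^ 6 * 5 ^ 4 * 7 ^ 3 := by
  obtain ⟨a, N1, h2, e1⟩ := Nat.exists_eq_pow_mul_and_not_dvd h0.ne' 2 (by norm_num)
  have hN1 : N1 ≠ 0 := by
    rintro rfl
    exact h2 (dvd_zero _)
  obtain ⟨b, N2, h3, e2⟩ := Nat.exists_eq_pow_mul_and_not_dvd hN1 3 (by norm_num)
  have hN2 : N2 ≠ 0 := by
    rintro rfl
    exact h3 (dvd_zero _)
  obtain ⟨c, N3, h5, e3⟩ := Nat.exists_eq_pow_mul_and_not_dvd hN2 5 (by norm_num)
  have hN3 : N3 ≠ 0 := by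
    rintro rfl
    exact h5 (dvd_zero _)
  obtain ⟨d, N4, h7, e4⟩ := Nat.exists_eq_pow_mul_and_not_dvd hN3 7 (by norm_num)
  have d43 : N4 ∣ N3 := e4 ▸ dvd_mul_left _ _
  have d32 : N3 ∣ N2 := e3 ▸ dvd_mul_left _ _
  have d21 : N2 ∣ N1 := e2 ▸ dvd_mul_left _ _
  have d10 : N1 ∣ N := e1 ▸ dvd_mul_left _ _
  have hN4 : N4 = 1 := by
    by_contra hne
    obtain ⟨p, hp, hpd⟩ := Nat.exists_prime_and_dvd hne
    have hp7 : p ≤ 7 :=
      hs p hp (hpd.trans (d43.trans (d32.trans (d21.trans d10))))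
    have hp2 := hp.two_le
    interval_cases p
    · exact h2 (hpd.trans (d43.trans (d32.trans d21)))
    · exact h3 (hpd.trans (d43.trans d32))
    · exact absurd hp (by norm_num)
    · exact h5 (hpd.trans d43)
    · exact absurd hp (by norm_num)
    · exact h7 hpd
  subst hN4
  rw [Nat.mul_one] at e4
  subst e4
  have ha : a ≤ 10 :=
    smooth_aux_le (p := 2) (by norm_num) 10 (by omega) h0 (e1 ▸ dvd_mul_right _ _)
  have hb : b ≤ 6 :=
    smooth_aux_le (p := 3) (by norm_num) 6 (by omega) h0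
      ((show 3 ^ b ∣ N1 from e2 ▸ dvd_mul_right _ _).trans d10)
  have hc : c ≤ 4 :=
    smooth_aux_le (p := 5) (by norm_num) 4 (by omega) h0
      ((show 5 ^ c ∣ N2 from e3 ▸ dvd_mul_right _ _).trans (d21.trans d10))
  have hd : d ≤ 3 :=
    smooth_aux_le (p := 7) (by norm_num) 3 (by omega) h0 (d32.trans (d21.trans d10))
  have e : N = 2 ^ a * 3 ^ b * 5 ^ c * 7 ^ d := by
    rw [e1, e2, e3]; ring
  rw [e]
  exact Nat.mul_dvd_mul (Nat.mul_dvd_mul (Nat.mul_dvd_mul (pow_dvd_pow 2 ha) (pow_dvd_pow 3 hb))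
    (pow_dvd_pow 5 hc)) (pow_dvd_pow 7 hd)

end Cfsg.Agent.S496
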