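import Mathlib
import Cfsg.Agent.Lib.Helper44.UDDefs

/-!
# S5655 piece HYP

A nonzero isotropic vector `w` of the nondegenerate plane spanned by two unit vectors `u`, `v`
has a hyperbolic partner `w'` in that plane.
-/

set_option autoImplicit false

namespace Cfsg.Agent.Lib.Helper44.UD

open Matrix Cfsg.Agent.Lib.Helper93 Cfsg.Agent.Lib.Helper18 Cfsg.Agent.Lib.Helper7

theorem udhyp_aux {F : Type*} [Field F] [Fintype F] {q : ℕ}
    (hF : Fintype.card F = q ^ 2) (N : ℕ) (u v w y : Fin N → F)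
    (hw : ∃ a b : F, w = a • u + b • v) (hy : ∃ a b : F, y = a • u + b • v)
    (hww : Cfsg.hermForm N F q w w = 0) (hwy : Cfsg.hermForm N F q w y ≠ 0) :
    ∃ w' : Fin N → F, (∃ a b : F, w' = a • u + b • v) ∧ Cfsg.hermForm N F q w' w' = 0 ∧
      Cfsg.hermForm N F q w w' = 1 := by
  obtain ⟨a, b, hwab⟩ := hw
  obtain ⟨α, β, hyab⟩ := hy
  have h1 : Cfsg.hermForm N F q w ((Cfsg.hermForm N F q w y ^ q)⁻¹ • y) = 1 := by
    rw [hf_smul_right, inv_pow, herm_pow_pow hF]
    exact inv_mul_cancel₀ hwy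
  have h1' : Cfsg.hermForm N F q ((Cfsg.hermForm N F q w y ^ q)⁻¹ • y) w = 1 := by
    rw [hf_conj hF N w _, h1, one_pow]
  have hdq : Cfsg.hermForm N F q ((Cfsg.hermForm N F q w y ^ q)⁻¹ • y)
      ((Cfsg.hermForm N F q w y ^ q)⁻¹ • y) ^ q =
      Cfsg.hermForm N F q ((Cfsg.hermForm N F q w y ^ q)⁻¹ • y)
        ((Cfsg.hermForm N F q w y ^ q)⁻¹ • y) := hf_self_pow hF N _
  obtain ⟨l, hl⟩ := exists_trace_one (F := F) hF
  generalize hy₁ : (Cfsg.hermForm N F q w y ^ q)⁻¹ • y = y₁ at h1 h1' hdq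
  generalize hd : Cfsg.hermForm N F q y₁ y₁ = d at hdq
  have hc'q : (-(d * l)) ^ q = -(d * l ^ q) := by
    rw [herm_neg_pow hF, mul_pow, hdq]
  refine ⟨y₁ + (-(d * l)) • w, ⟨(Cfsg.hermForm N F q w y ^ q)⁻¹ * α + (-(d * l)) * a,
    (Cfsg.hermForm N F q w y ^ q)⁻¹ * β + (-(d * l)) * b, ?_⟩, ?_, ?_⟩
  · rw [← hy₁, hyab, hwab]
    ext i
    simp only [Pi.add_apply, Pi.smul_apply, smul_eq_mul]
    ring
  · simp only [hf_add_left, hf_add_right hF, hf_smul_left, hf_smul_right]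
    rw [h1, h1', hww, hd, hc'q]
    linear_combination (-d) * hl
  · simp only [hf_add_right hF, hf_smul_right]
    rw [h1, hww]
    ring

theorem ud_hyp {F : Type*} [Field F] [Fintype F] (q : ℕ) : HypStmt F q := by
  intro hF N u v w huu hvv huv hw hw0 hww
  obtain ⟨a, b, hwab⟩ := hw
  have hwu : Cfsg.hermForm N F q w u = a + b * Cfsg.hermForm N F q v u := by
    rw [hwab, hf_add_left, hf_smul_left, hf_smul_left, huu, mul_one]
  have hwv : Cfsg.hermForm N F q w v = a * Cfsg.hermForm N F q u v + b := by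
    rw [hwab, hf_add_left, hf_smul_left, hf_smul_left, hvv, mul_one]
  have hvu : Cfsg.hermForm N F q v u = Cfsg.hermForm N F q u v ^ q := hf_conj hF N u v
  by_cases h1 : Cfsg.hermForm N F q w u = 0
  · by_cases h2 : Cfsg.hermForm N F q w v = 0
    · exfalso
      rw [hwu, hvu] at h1
      rw [hwv] at h2
      have hb : b * (1 - Cfsg.hermForm N F q u v ^ (q + 1)) = 0 := by
        rw [pow_succ]
        linear_combination h2 - (Cfsg.hermForm N F q u v) * h1
      have hb0 : b = 0 := by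
        rcases mul_eq_zero.mp hb with h | h
        · exact h
        · exact absurd (sub_eq_zero.mp h).symm huv
      have ha0 : a = 0 := by
        rw [hb0, zero_mul, add_zero] at h1
        exact h1
      apply hw0
      rw [hwab, ha0, hb0, zero_smul, zero_smul, add_zero]
    · exact udhyp_aux hF N u v w v ⟨a, b, hwab⟩ ⟨0, 1, by simp⟩ hww h2
  · exact udhyp_aux hF N u v w u ⟨a, b, hwab⟩ ⟨1, 0, by simp⟩ hww h1

end Cfsg.Agent.Lib.Helper44.UD
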