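import Cfsg.Agent.Lib.Helper22.W2Defs

/-!
# S4707 project W2 (helper22), piece FIXFREE (helper69)

A primitive group on `2p` points whose Sylow `p`-subgroups have order `p`: the elements of
order `p` have no fixed points.
-/

set_option autoImplicit false

namespace Cfsg.Agent.Lib.Helper69.W2

open Cfsg Cfsg.Agent.Lib.Helper22.W2
open scoped ComplexConjugate

universe u

section perm

variable {α : Type*} [Fintype α] [DecidableEq α]

/-- PIECE FIXFREE -/
theorem fixfree {p : ℕ} [Fact p.Prime] (hα : Fintype.card α = 2 * p)
    (G : Subgroup (Equiv.Perm α)) (hprim : MulAction.IsPreprimitive G α) (P : Sylow p G)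
    (hP : Nat.card P = p) (g : G) (hg : orderOf g = p) : fixc G g = 0 := by
  have hpp : p.Prime := Fact.out
  unfold fixc
  rw [Nat.cast_eq_zero, Finset.card_eq_zero, Finset.filter_eq_empty_iff]
  intro a _ ha
  haveI : MulAction.IsPretransitive G α := hprim.toIsPretransitive
  have hstab : g ∈ MulAction.stabilizer G a := by
    rw [MulAction.mem_stabilizer_iff]
    exact ha
  have hdvd : p ∣ Nat.card (MulAction.stabilizer G a) := by
    have h1 : orderOf (⟨g, hstab⟩ : MulAction.stabilizer G a) = p := by
      rw [← hg]
      exact Subgroup.orderOf_mk g hstab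
    rw [← h1]
    exact orderOf_dvd_natCard _
  have hidx : (MulAction.stabilizer G a).index = Nat.card α :=
    MulAction.index_stabilizer_of_transitive G a
  have hcard : Nat.card (MulAction.stabilizer G a) * (2 * p) = Nat.card G := by
    rw [← hα, ← Nat.card_eq_fintype_card, ← hidx]
    exact Subgroup.card_mul_index _
  have hsq : p ^ 2 ∣ Nat.card G := by
    rw [← hcard, sq]
    exact Nat.mul_dvd_mul hdvd (Dvd.intro_left 2 rfl)
  have hne : Nat.card G ≠ 0 := Nat.card_pos.ne'
  have h2 : 2 ≤ (Nat.card G).factorization p := (hpp.pow_dvd_iff_le_factorization hne).mp hsq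
  have h3 : Nat.card P = p ^ (Nat.card G).factorization p := P.card_eq_multiplicity
  rw [hP] at h3
  have h4 : (Nat.card G).factorization p = 1 := by
    have h5 : p ^ 1 = p ^ (Nat.card G).factorization p := by rw [pow_one]; exact h3
    exact (Nat.pow_right_injective hpp.two_le h5).symm
  omega

end perm

end Cfsg.Agent.Lib.Helper69.W2
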